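import Mathlib

/-!
# The counting argument for Brauer's bound `p ≤ 2 χ(1) + 1`
-/

set_option autoImplicit false

namespace Cfsg.Agent.Lib.Helper21

theorem count_arith {p f t km kp : ℕ} (hp : p.Prime) (ht : p - 1 = f * t) (hpf : 2 * f + 1 < p)
    (hf2 : 2 ≤ f) (hf : f = kp + km) (h1 : (p - 1) * km ≤ f * f) (h2 : kp ≤ km + 1) : False := by
  have hf0 : 0 < f := by omega
  have ht3 : 3 ≤ t := by
    by_contra hlt
    have : t ≤ 2 := by omega
    have : f * t ≤ f * 2 := Nat.mul_le_mul_left _ this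
    omega
  rw [ht, mul_assoc] at h1
  have h3 : t * km ≤ f := Nat.le_of_mul_le_mul_left h1 hf0
  have h4 : 3 * km ≤ t * km := Nat.mul_le_mul_right _ ht3
  have hkm : km ≤ 1 := by omega
  rcases Nat.le_one_iff_eq_zero_or_eq_one.1 hkm with h0 | h0
  · omega
  · subst h0
    have hf3 : f = 3 := by omega
    have ht3' : t = 3 := by omega
    subst hf3 ht3'
    have hp10 : p = 10 := by omega
    subst hp10
    exact absurd hp (by norm_num)

theorem count_false {ι : Type*} [DecidableEq ι] (X Y : Finset ι) (a : ι → ℤ) (ε : ℤ)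
    (d m0 u w : ι → ℕ) (p f : ℕ) (hp : p.Prime) (hdvd : f ∣ p - 1) (hpf : 2 * f + 1 < p)
    (hf2 : 2 ≤ f) (hcard : X.card = f) (hY : Y.Nonempty)
    (sign : ∀ χ ∈ X, a χ = 1 ∨ a χ = -1) (eps : ε = 1 ∨ ε = -1)
    (F1 : ∀ χ ∈ X, (u χ : ℤ) - w χ = a χ)
    (F2 : ∑ ξ ∈ Y, ((u ξ : ℤ) - w ξ) = -ε)
    (F3 : ∀ ψ, w ψ * m0 ψ = 0)
    (F4 : ∀ χ ∈ X, (p : ℤ) * m0 χ = d χ + ((p : ℤ) - 1) * a χ)
    (F5 : ∀ ξ ∈ Y, (p : ℤ) * m0 ξ = d ξ - ε * f)
    (F6 : ∀ ξ ∈ Y, ε * d ξ = ∑ χ ∈ X, a χ * d χ)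
    (F7 : (p - 1) * (X.filter (fun χ => a χ = -1)).card ≤ f * f)
    (F8 : ∀ χ ∈ X, ∀ χ' ∈ X, a χ = 1 → d χ = 1 → a χ' = 1 → d χ' = 1 → χ = χ')
    (F9 : ∀ χ ∈ X, 1 ≤ d χ) : False := by
  have hp0 : (0 : ℤ) < p := by exact_mod_cast hp.pos
  -- a suitable exceptional character
  obtain ⟨ξ, hξ, hξ0⟩ : ∃ ξ ∈ Y, ε * (m0 ξ : ℤ) ≤ 0 := by
    rcases eps with he | he
    · have : ∃ ξ ∈ Y, (u ξ : ℤ) - w ξ < 0 := by
        by_contra hcon
        push Not at hcon
        have := Finset.sum_nonneg hcon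
        rw [F2, he] at this
        omega
      obtain ⟨ξ, hξ, hlt⟩ := this
      refine ⟨ξ, hξ, ?_⟩
      have hw : w ξ ≠ 0 := by omega
      have := F3 ξ
      have hm : m0 ξ = 0 := by
        rcases Nat.mul_eq_zero.1 this with h | h
        · exact absurd h hw
        · exact h
      rw [hm]; simp
    · obtain ⟨ξ, hξ⟩ := hY
      refine ⟨ξ, hξ, ?_⟩
      rw [he]
      have : (0 : ℤ) ≤ m0 ξ := Int.natCast_nonneg _
      linarith
  have hε2 : ε * ε = 1 := by rcases eps with he | he <;> rw [he] <;> norm_num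
  -- the main identity
  have hsum : ∑ χ ∈ X, a χ * (m0 χ : ℤ) = ε * m0 ξ + f := by
    have h1 : (p : ℤ) * ∑ χ ∈ X, a χ * (m0 χ : ℤ)
        = ∑ χ ∈ X, a χ * d χ + ∑ χ ∈ X, ((p : ℤ) - 1) := by
      rw [Finset.mul_sum, ← Finset.sum_add_distrib]
      apply Finset.sum_congr rfl
      intro χ hχ
      have h2 := F4 χ hχ
      have h3 : a χ * a χ = 1 := by rcases sign χ hχ with he | he <;> rw [he] <;> norm_num
      calc (p : ℤ) * (a χ * m0 χ) = a χ * ((p : ℤ) * m0 χ) := by ring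
        _ = a χ * d χ + ((p : ℤ) - 1) * (a χ * a χ) := by rw [h2]; ring
        _ = _ := by rw [h3, mul_one]
    rw [← F6 ξ hξ, Finset.sum_const, hcard, nsmul_eq_mul] at h1
    have h4 := F5 ξ hξ
    have h5 : (p : ℤ) * ∑ χ ∈ X, a χ * (m0 χ : ℤ) = (p : ℤ) * (ε * m0 ξ + f) := by
      have : (d ξ : ℤ) = (p : ℤ) * m0 ξ + ε * f := by linarith
      rw [h1, this]
      linear_combination (f : ℤ) * hε2
    exact mul_left_cancel₀ hp0.ne' h5
  -- lower bound
  have hlow : ∀ χ ∈ X, (if a χ = 1 then (if d χ = 1 then (1 : ℤ) else 2) else 0)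
      ≤ a χ * (m0 χ : ℤ) := by
    intro χ hχ
    have h4 := F4 χ hχ
    rcases sign χ hχ with ha | ha
    · rw [if_pos ha, ha, one_mul]
      rw [ha, mul_one] at h4
      have h9 := F9 χ hχ
      split_ifs with hd
      · by_contra hlt
        have : (m0 χ : ℤ) ≤ 0 := by omega
        nlinarith
      · by_contra hlt
        have h5 : (m0 χ : ℤ) ≤ 1 := by omega
        have h6 : (2 : ℤ) ≤ d χ := by omega
        nlinarith
    · rw [if_neg (by rw [ha]; norm_num)]
      have h1 := F1 χ hχ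
      have hw : w χ ≠ 0 := by omega
      have hm : m0 χ = 0 := by
        rcases Nat.mul_eq_zero.1 (F3 χ) with h | h
        · exact absurd h hw
        · exact h
      rw [hm]; simp
  have hlow' := Finset.sum_le_sum hlow
  rw [hsum] at hlow'
  set Xp := X.filter (fun χ => a χ = 1) with hXp
  set Xm := X.filter (fun χ => a χ = -1) with hXm
  have hsplit : f = Xp.card + Xm.card := by
    rw [← hcard, hXp, hXm, ← Finset.card_union_of_disjoint]
    · congr 1
      ext χ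
      simp only [Finset.mem_union, Finset.mem_filter]
      constructor
      · intro h
        rcases sign χ h with ha | ha
        · exact Or.inl ⟨h, ha⟩
        · exact Or.inr ⟨h, ha⟩
      · rintro (h | h) <;> exact h.1
    · rw [Finset.disjoint_left]
      intro χ h1 h2
      have e1 := (Finset.mem_filter.1 h1).2
      have e2 := (Finset.mem_filter.1 h2).2
      rw [e1] at e2
      norm_num at e2
  have hone : (Xp.filter (fun χ => d χ = 1)).card ≤ 1 := by
    rw [Finset.card_le_one]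
    intro χ hχ χ' hχ'
    rw [Finset.mem_filter, hXp, Finset.mem_filter] at hχ hχ'
    exact F8 χ hχ.1.1 χ' hχ'.1.1 hχ.1.2 hχ.2 hχ'.1.2 hχ'.2
  have hcalc : ∑ χ ∈ X, (if a χ = 1 then (if d χ = 1 then (1 : ℤ) else 2) else 0)
      = 2 * Xp.card - (Xp.filter (fun χ => d χ = 1)).card := by
    rw [← Finset.sum_filter, ← hXp]
    have h1 : ∀ χ ∈ Xp, (if d χ = 1 then (1 : ℤ) else 2) = 2 - (if d χ = 1 then 1 else 0) := by
      intro χ _
      split_ifs <;> norm_num
    have h2 : ((Xp.filter (fun χ => d χ = 1)).card : ℤ) = ∑ χ ∈ Xp, if d χ = 1 then 1 else 0 := by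
      rw [Finset.card_filter]
      push_cast
      rfl
    rw [Finset.sum_congr rfl h1, Finset.sum_sub_distrib, Finset.sum_const, nsmul_eq_mul, h2]
    ring
  rw [hcalc] at hlow'
  obtain ⟨t, ht⟩ := hdvd
  refine count_arith hp ht hpf hf2 hsplit F7 ?_
  have : (f : ℤ) = Xp.card + Xm.card := by exact_mod_cast hsplit
  have h1 : ((Xp.filter (fun χ => d χ = 1)).card : ℤ) ≤ 1 := by exact_mod_cast hone
  have : (Xp.card : ℤ) ≤ Xm.card + 1 := by linarith
  exact_mod_cast this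

end Cfsg.Agent.Lib.Helper21
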