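import Cfsg.Agent.Lib.Helper25.DefOneL
import Cfsg.Agent.Lib.Helper80.DefOne
import Cfsg.Agent.Lib.Helper21.DefectBasic
import Cfsg.Agent.Lib.Helper21.Induced

/-!
# Blocks of defect one: existence of the context and of the shape for every `P`-trivial
irreducible character of `C_G(P)`
-/

set_option autoImplicit false
set_option linter.unusedSectionVars false
set_option linter.style.haveILetI false
open Cfsg
open scoped ComplexConjugate

namespace Cfsg.Agent.Lib.Helper21

open Cfsg.Agent.Lib.Helper98.BL Cfsg.Agent.Lib.Helper20 Cfsg.Agent.Lib.Helper81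
  Cfsg.Agent.Lib.Helper46 Cfsg.Agent.Lib.Helper25

universe u

variable {G : Type u} [Group G] {p : ℕ} [Fact p.Prime] {M : Ideal AlgInt}

/-- the stabilizer of `θ` in `N`, as a subgroup of `N` -/
def stabN (D : Data G) (θ : D.C → ℂ) : Subgroup D.N where
  carrier := {x | θ ∘ D.cj x = θ}
  one_mem' := D.comp_cj_one θ
  mul_mem' := by
    intro a b ha hb
    show θ ∘ D.cj (a * b) = θ
    rw [D.comp_cj_mul, show θ ∘ D.cj b = θ from hb]
    exact ha
  inv_mem' := by
    intro a ha
    show θ ∘ D.cj a⁻¹ = θ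
    have h1 : θ ∘ D.cj (a⁻¹ * a) = (θ ∘ D.cj a) ∘ D.cj a⁻¹ := D.comp_cj_mul θ a⁻¹ a
    rw [inv_mul_cancel, D.comp_cj_one, show θ ∘ D.cj a = θ from ha] at h1
    exact h1.symm

theorem mem_stabN (D : Data G) (θ : D.C → ℂ) (x : D.N) : x ∈ stabN D θ ↔ θ ∘ D.cj x = θ := Iff.rfl

/-- the stabilizer as a subgroup of `G`, in the form of the statements -/
theorem mem_map_stabN (D : Data G) (E : DExtra D p) (θ : D.C → ℂ) (g : G) :
    g ∈ (stabN D θ).map D.N.subtype ↔ (g ∈ Subgroup.normalizer (D.Z : Set G) ∧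
      ∀ c c' : D.C, (c' : G) = g * c * g⁻¹ → θ c' = θ c) := by
  constructor
  · rintro ⟨x, hx, rfl⟩
    refine ⟨by rw [← E.hNN]; exact x.2, ?_⟩
    intro c c' hc
    have h1 := congrFun ((mem_stabN D θ x).1 hx) c'
    simp only [Function.comp_apply] at h1
    have h2 : D.cj x c' = c := by
      apply Subtype.ext
      show (x : G)⁻¹ * (c' : G) * (x : G) = c
      rw [hc]
      simp [mul_assoc]
    rw [← h1, h2]
  · rintro ⟨hg, h⟩
    have hgN : g ∈ D.N := by
      show g ∈ Subgroup.normalizer (D.C : Set G)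
      rw [E.hNN]; exact hg
    refine ⟨⟨g, hgN⟩, ?_, rfl⟩
    show θ ∘ D.cj ⟨g, hgN⟩ = θ
    funext c
    simp only [Function.comp_apply]
    refine (h _ c ?_).symm
    show (c : G) = g * (g⁻¹ * (c : G) * g) * g⁻¹
    group

section ctx

variable [Fintype G]

/-- the context, from an induced block -/
theorem bctx_of_ind (hM : IsPModular p M) (D : Data G) (E : DExtra D p)
    (hmax : ∀ Q : Subgroup G, IsPGroup p Q → D.Z ≤ Q → Q = D.Z)
    (θ : IrrCharacter D.C) (hθP : D.PTriv θ) (B : Set (IrrCharacter G))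
    (hind : IsInducedBlock M D.C (blockOf M (θ : D.C → ℂ)) B) : BCtx D p M B θ := by
  classical
  haveI : Fintype D.C := Fintype.ofFinite _
  refine ⟨E, hM, hind.2.1, ?_, hθP, hind⟩
  obtain ⟨Db, hDb⟩ := exists_isDefectGroup hM _ hind.1
  have hPp : IsPGroup p D.Z := IsPGroup.of_card (n := 1) (by rw [E.cardZ, pow_one])
  haveI : (D.Z.subgroupOf D.C).Normal := by
    constructor
    intro n hn g
    rw [Subgroup.mem_subgroupOf] at hn ⊢
    have h1 : ((g * n * g⁻¹ : D.C) : G) = n := by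
      have h2 := D.hcent n hn g g.2
      show (g : G) * n * (g : G)⁻¹ = n
      rw [← h2]; group
    rw [h1]; exact hn
  have h1 := normal_pSubgroup_le_defectGroup hM _ hind.1 Db hDb (D.Z.subgroupOf D.C)
    hPp.comap_subtype
  obtain ⟨Q, hQ, hle⟩ := defectGroup_le_of_induced hM hind Db hDb
  have hZQ : D.Z ≤ Q := by
    intro z hz
    apply hle
    exact ⟨⟨z, D.hZC hz⟩, h1 (Subgroup.mem_subgroupOf.2 hz), rfl⟩
  have hQp : IsPGroup p Q := by
    obtain ⟨g, _, S, rfl⟩ := hQ
    exact S.2.map _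
  rw [← hmax Q hQp hZQ]
  exact hQ

end ctx

/-- the inertial index and the crux inequality, in terms of the data -/
theorem exists_index_le_blockRank [Finite G] (hM : IsPModular p M) (P : Sylow p G)
    (hP : Nat.card (P : Subgroup G) = p) (D : Data G)
    (hC : D.C = Subgroup.centralizer ((P : Subgroup G) : Set G)) (hZ : D.Z = (P : Subgroup G))
    (θ : IrrCharacter D.C) (hθP : D.PTriv θ) (B : Set (IrrCharacter G))
    (hind : IsInducedBlock M D.C (blockOf M (θ : D.C → ℂ)) B) :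
    ∃ e : ℕ, Nat.card {x : D.N // (θ : D.C → ℂ) ∘ D.cj x = θ} = e * Nat.card D.C ∧
      e ≤ blockRank p B := by
  have E := dextra_of_data P hP D hC hZ
  obtain ⟨C, Z, hZC, hcent, r, hr, hTI, hSR⟩ := D
  dsimp only at hC hZ
  subst hC hZ
  have hT := mem_map_stabN _ E (θ : _ → ℂ)
  refine ⟨_, card_stab_eq _ E θ _ hT, ?_⟩
  refine Cfsg.Agent.Lib.Helper80.le_blockRank p M hM P hP B _ hind θ (mem_blockOf_self hM θ) ?_ _ hT
  intro x hx
  exact hθP ⟨x, hx⟩

end Cfsg.Agent.Lib.Helper21
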