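import Cfsg.Agent.Lib.Helper21.HalfLocal
import Cfsg.Agent.Lib.Helper78.DefectZero

/-!
# Brauer's bound `p ≤ 2 χ(1) + 1` for faithful characters of groups with a Sylow subgroup of
prime order which is not normal
-/

set_option autoImplicit false
set_option linter.unusedSectionVars false
set_option linter.style.haveILetI false
open Cfsg
open scoped ComplexConjugate

namespace Cfsg.Agent.Lib.Helper21

open Cfsg.Agent.Lib.Helper98.BL Cfsg.Agent.Lib.Helper20 Cfsg.Agent.Lib.Helper81
  Cfsg.Agent.Lib.Helper46 Cfsg.Agent.Lib.Helper25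

universe u

theorem multiset_sum_apply_eq {G : Type u} [Group G] (l : Multiset (IrrCharacter G)) (z : G)
    (h : ∀ ζ ∈ l, (ζ : G → ℂ) z = (ζ : G → ℂ) 1) :
    (l.map Subtype.val).sum z = (l.map Subtype.val).sum 1 := by
  induction l using Multiset.induction_on with
  | empty => simp
  | cons a l ih =>
    rw [Multiset.map_cons, Multiset.sum_cons, Pi.add_apply, Pi.add_apply,
      ih (fun ζ hζ => h ζ (Multiset.mem_cons_of_mem hζ)), h a (Multiset.mem_cons_self a l)]

theorem multiset_sum_apply_one {G : Type u} [Group G] (l : Multiset (IrrCharacter G)) :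
    (l.map Subtype.val).sum 1
      = (((l.map (fun ζ : IrrCharacter G => charDegree (ζ : G → ℂ))).sum : ℕ) : ℂ) := by
  induction l using Multiset.induction_on with
  | empty => simp
  | cons a l ih =>
    rw [Multiset.map_cons, Multiset.sum_cons, Pi.add_apply, ih, Multiset.map_cons,
      Multiset.sum_cons, Cfsg.Agent.Lib.Helper82.isChar_one_eq (isCharacter_of_isIrrCharacter a.2)]
    push_cast
    rfl

/-- the case where `P` normally generates `G` -/
theorem normal_of_star {G : Type u} [Group G] [Finite G] {p : ℕ} [Fact p.Prime] (P : Sylow p G)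
    (hP : Nat.card (P : Subgroup G) = p)
    (hstar : ∀ K : Subgroup G, K.Normal → (P : Subgroup G) ≤ K → K = ⊤)
    (χ : G → ℂ) (hχ : IsCharacter G χ) (hfaith : ∀ g, χ g = χ 1 → g = 1)
    (hdeg : 2 * charDegree χ + 1 < p) : (P : Subgroup G).Normal := by
  classical
  obtain ⟨M, hM⟩ := Cfsg.Agent.Lib.Helper78.exists_isPModular (Fact.out : p.Prime)
  have hne : Nontrivial (P : Subgroup G) := by
    rw [← Finite.one_lt_card_iff_nontrivial, hP]; exact (Fact.out : p.Prime).one_lt
  obtain ⟨D, hC, hZ⟩ := exists_data P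
    (fun x hx hx1 => centralizer_singleton_of_card_prime' (P : Subgroup G) hP hx hx1) hne
  haveI : Fintype G := Fintype.ofFinite _
  haveI : Fintype D.C := Fintype.ofFinite _
  haveI : Fintype D.N := Fintype.ofFinite _
  haveI : Fintype D.Z := Fintype.ofFinite _
  haveI : Finite D.X := finite_hom (Z_comm _)
  haveI : Fintype D.X := Fintype.ofFinite _
  haveI : Finite (IrrCharacter D.C) := Cfsg.Agent.Lib.Helper20.finite_irrCharacter
  haveI : Fintype (IrrCharacter D.C) := Fintype.ofFinite _
  haveI : Finite (IrrCharacter G) := Cfsg.Agent.Lib.Helper20.finite_irrCharacter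
  haveI : Fintype (IrrCharacter G) := Fintype.ofFinite _
  have hstar' : ∀ K : Subgroup G, K.Normal → D.Z ≤ K → K = ⊤ := by rw [hZ]; exact hstar
  obtain ⟨l, hl⟩ := exists_multiset_of_isCharacter hχ
  have hdl : ∀ ζ ∈ l, charDegree (ζ : G → ℂ) ≤ charDegree χ := by
    intro ζ hζ
    have h1 := multiset_sum_apply_one l
    rw [← hl, Cfsg.Agent.Lib.Helper82.isChar_one_eq hχ] at h1
    have h2 : charDegree χ = (l.map (fun ζ : IrrCharacter G => charDegree (ζ : G → ℂ))).sum := by
      exact_mod_cast h1
    rw [h2]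
    exact Multiset.le_sum_of_mem
      (Multiset.mem_map_of_mem (fun ζ : IrrCharacter G => charDegree (ζ : G → ℂ)) hζ)
  have hlin : ∀ ζ ∈ l, (ζ : G → ℂ) 1 = 1 := fun ζ hζ =>
    linear_of_small hM P hP hC hZ hstar' ζ (by have := hdl ζ hζ; omega)
  have hcomm : ∀ z ∈ commutator G, z = 1 := by
    intro z hz
    apply hfaith
    rw [hl]
    apply multiset_sum_apply_eq
    intro ζ hζ
    rw [Cfsg.Agent.Lib.Helper82.isChar_linear_commutator (isCharacter_of_isIrrCharacter ζ.2)
      (hlin ζ hζ) hz, hlin ζ hζ]
  constructor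
  intro n hn g
  have h1 : g * n * g⁻¹ * n⁻¹ ∈ commutator G :=
    Subgroup.commutator_mem_commutator (Subgroup.mem_top g) (Subgroup.mem_top n)
  have h2 := hcomm _ h1
  have h3 : g * n * g⁻¹ = n := by
    rw [← mul_inv_eq_one]; exact h2
  rw [h3]; exact hn

theorem factorization_eq_one_of_exact {p m : ℕ} (hp : p.Prime) (hm : m ≠ 0) (h1 : p ∣ m)
    (h2 : ¬ p ^ 2 ∣ m) : m.factorization p = 1 := by
  have h3 : 1 ≤ m.factorization p :=
    (hp.pow_dvd_iff_le_factorization hm).1 (by rw [pow_one]; exact h1)
  have h4 : ¬ 2 ≤ m.factorization p := fun h => h2 ((hp.pow_dvd_iff_le_factorization hm).2 h)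
  omega

/-- **Brauer.**  A group with a faithful character of degree less than `(p - 1) / 2` whose order
is divisible by `p` exactly once has a normal subgroup of order `p`. -/
theorem exists_normal_of_small (p : ℕ) [Fact p.Prime] : ∀ (n : ℕ) (G : Type u) [Group G] [Finite G],
    Nat.card G = n → p ∣ Nat.card G → ¬ p ^ 2 ∣ Nat.card G → ∀ χ : G → ℂ, IsCharacter G χ →
    (∀ g, χ g = χ 1 → g = 1) → 2 * charDegree χ + 1 < p →
    ∃ H : Subgroup G, H.Normal ∧ Nat.card H = p := by
  intro n
  induction n using Nat.strong_induction_on with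
  | _ n ih =>
    intro G _ _ hn hdiv hsq χ hχ hfaith hdeg
    have hp : p.Prime := Fact.out
    obtain ⟨P⟩ : Nonempty (Sylow p G) := inferInstance
    have hP : Nat.card (P : Subgroup G) = p := by
      have h1 := P.card_eq_multiplicity
      rw [factorization_eq_one_of_exact hp Nat.card_pos.ne' hdiv hsq, pow_one] at h1
      exact h1
    by_cases hstar : ∀ K : Subgroup G, K.Normal → (P : Subgroup G) ≤ K → K = ⊤
    · exact ⟨P, normal_of_star P hP hstar χ hχ hfaith hdeg, hP⟩
    · push Not at hstar
      obtain ⟨K, hK, hPK, hKt⟩ := hstar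
      have hlt : Nat.card K < n := by
        rw [← hn]
        by_contra hge
        exact hKt (Subgroup.eq_top_of_le_card K (by omega))
      have hdivK : p ∣ Nat.card K := by rw [← hP]; exact Subgroup.card_dvd_of_le hPK
      have hsqK : ¬ p ^ 2 ∣ Nat.card K := fun h => hsq (h.trans (Subgroup.card_subgroup_dvd_card K))
      obtain ⟨H, hH, hHc⟩ := ih (Nat.card K) hlt K rfl hdivK hsqK (fun k => χ k)
        (Cfsg.Agent.Lib.Helper82.isChar_comp_hom hχ K.subtype)
        (fun k hk => Subtype.ext (hfaith k hk)) hdeg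
      have hcard : Nat.card H = p ^ (Nat.card K).factorization p := by
        rw [factorization_eq_one_of_exact hp Nat.card_pos.ne' hdivK hsqK, pow_one, hHc]
      have hchar : H.Characteristic := by
        have h1 := (Sylow.ofCard H hcard).characteristic_of_normal
          (by rw [Sylow.coe_ofCard]; exact hH)
        rw [Sylow.coe_ofCard] at h1
        exact h1
      refine ⟨H.map K.subtype, ConjAct.normal_of_characteristic_of_normal, ?_⟩
      rw [Subgroup.card_map_of_injective K.subtype_injective, hHc]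

end Cfsg.Agent.Lib.Helper21
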