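import Cfsg.Agent.Lib.Helper21.HalfMain
import Cfsg.Agent.S0919
import Cfsg.Agent.Lib.Helper82.Linear

/-!
# Brauer's bound: irreducible characters of small degree are linear
-/

set_option autoImplicit false
set_option linter.unusedSectionVars false
set_option linter.style.haveILetI false
open Cfsg
open scoped ComplexConjugate

namespace Cfsg.Agent.Lib.Helper21

open Cfsg.Agent.Lib.Helper98.BL Cfsg.Agent.Lib.Helper20 Cfsg.Agent.Lib.Helper81
  Cfsg.Agent.Lib.Helper46 Cfsg.Agent.Lib.Helper25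

universe u

variable {G : Type u} [Group G] {D : Data G} {p : ℕ} [Fact p.Prime]
  {M : Ideal AlgInt} [Fintype G] [Fintype D.C] [Fintype D.N] [Fintype D.X]
  [Fintype (IrrCharacter D.C)] [Fintype (IrrCharacter G)]

/-- the shape of the block attached to a `P`-trivial irreducible character of `C_G(P)` -/
theorem exists_shape (hM : IsPModular p M) (P : Sylow p G) (hP : Nat.card (P : Subgroup G) = p)
    (hC : D.C = Subgroup.centralizer ((P : Subgroup G) : Set G)) (hZ : D.Z = (P : Subgroup G))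
    (θ : IrrCharacter D.C) (hθP : D.PTriv θ) :
    ∃ (B : Set (IrrCharacter G)) (e : ℕ) (X Y : Set (IrrCharacter G)) (a : IrrCharacter G → ℤ)
      (ε : ℤ), BCtx D p M B θ ∧
      Nat.card {x : D.N // (θ : D.C → ℂ) ∘ D.cj x = θ} = e * Nat.card D.C ∧
      CShape p e (relX D θ) (fun κ : {κ : D.X // κ ≠ 1} => kcol D θ κ.1) B X Y a ε := by
  have E := dextra_of_data P hP D hC hZ
  have hPC : (P : Subgroup G) ≤ D.C := by rw [← hZ]; exact D.hZC
  have hCN : D.C ≤ Subgroup.normalizer ((P : Subgroup G) : Set G) := by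
    rw [← hZ]; exact fun c hc => E.C_le_normalizer_Z hc
  obtain ⟨B, hind⟩ := Cfsg.Agent.S0919.result p M hM (P : Subgroup G) D.C P.2 hPC
    (by rw [hC]) hCN (blockOf M (θ : D.C → ℂ)) ⟨θ, rfl⟩
  have hmax : ∀ Q : Subgroup G, IsPGroup p Q → D.Z ≤ Q → Q = D.Z := by
    intro Q hQ hle
    rw [hZ] at hle ⊢
    exact P.3 hQ hle
  have h := bctx_of_ind hM D E hmax θ hθP B hind
  obtain ⟨e, he, hcrux⟩ := exists_index_le_blockRank hM P hP D hC hZ θ hθP B hind
  obtain ⟨X, Y, a, ε, hs⟩ := h.cshape e he hcrux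
  exact ⟨B, e, X, Y, a, ε, h, he, hs⟩

theorem card_stab_oneC :
    Nat.card {x : D.N // ((oneC D : IrrCharacter D.C) : D.C → ℂ) ∘ D.cj x = oneC D}
      = Nat.card D.N :=
  Nat.card_congr (Equiv.subtypeUnivEquiv (fun _ => rfl))

open Classical in
/-- if `|N : C| ≥ 2`, an irreducible character of small degree is trivial on `P` -/
theorem false_of_two_le (hM : IsPModular p M) (P : Sylow p G) (hP : Nat.card (P : Subgroup G) = p)
    (hC : D.C = Subgroup.centralizer ((P : Subgroup G) : Set G)) (hZ : D.Z = (P : Subgroup G))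
    [Fintype D.Z] (hstar : ∀ K : Subgroup G, K.Normal → D.Z ≤ K → K = ⊤)
    {f : ℕ} (hf : Nat.card D.N = f * Nat.card D.C) (hf2 : 2 ≤ f)
    (ζ : IrrCharacter G) (hdeg : 2 * charDegree (ζ : G → ℂ) + 1 < p)
    (θ : IrrCharacter D.C) (hθP : D.PTriv θ) {κ₀ : D.X} (hκ₀ : κ₀ ≠ 1)
    (hne : mN D ζ (D.zk θ κ₀) ≠ 0) : False := by
  obtain ⟨B, e, X, Y, a, ε, h, he, hs⟩ := exists_shape hM P hP hC hZ θ hθP
  obtain ⟨B₀, e₀, X₀, Y₀, a₀, ε₀, h₀, he₀, hs₀⟩ :=
    exists_shape hM P hP hC hZ (oneC D) pTriv_oneC'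
  have hC0 : 0 < Nat.card D.C := Nat.card_pos
  have hef : e₀ = f := by
    have h1 := he₀
    rw [card_stab_oneC, hf] at h1
    exact (Nat.eq_of_mul_eq_mul_right hC0 h1).symm
  subst hef
  have hO := isOrbitSum h he hs ζ hdeg hκ₀ hne
  have hnt : ¬ D.PTriv (D.zk θ κ₀) := D.zk_not_pTriv hθP (DExtra.irr_one_ne θ.2) hκ₀
  have hfd : e₀ ≤ charDegree (ζ : G → ℂ) := IsOrbitSum.le_degree (ξ₁ := tw θ κ₀) hO hnt e₀ hf
  obtain ⟨hY, hε, -, -⟩ := str h he hs ζ hdeg hκ₀ hne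
  -- choice of `κ₁`
  obtain ⟨κ₁, hκ₁, hn⟩ : ∃ κ₁ : D.X, κ₁ ≠ 1 ∧ ¬ D.Cj (D.hat κ₀) (D.hat κ₁) := by
    by_contra hcon
    push Not at hcon
    have hcl := h₀.E.card_class (oneC D).2 pTriv_oneC' e₀ he₀ hκ₀
    rw [Nat.card_eq_fintype_card, Fintype.card_subtype] at hcl
    have hsub : (Finset.univ.erase (1 : D.X)) ⊆ Finset.univ.filter
        (fun κ' : D.X => D.Cj (D.zk (oneC D) κ₀) (D.zk (oneC D) κ')) := by
      intro κ hκ
      rw [Finset.mem_filter]
      refine ⟨Finset.mem_univ _, ?_⟩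
      rw [zk_oneC, zk_oneC]
      exact hcon κ (Finset.ne_of_mem_erase hκ)
    have := Finset.card_le_card hsub
    rw [hcl, Finset.card_erase_of_mem (Finset.mem_univ _), Finset.card_univ, cardX_eq h.E] at this
    omega
  obtain ⟨ζ', hY', hne'⟩ := exists_companion h hs hY hε hκ₁
  have hp1 : ¬ p ∣ orderOf (1 : G) := by
    rw [orderOf_one, Nat.dvd_one]; exact (Fact.out : p.Prime).one_lt.ne'
  have hdd : charDegree (ζ' : G → ℂ) = charDegree (ζ : G → ℂ) := by
    have := hs.agree ζ' hY' ζ hY 1 hp1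
    rw [Cfsg.Agent.Lib.Helper82.isChar_one_eq (isCharacter_of_isIrrCharacter ζ'.2),
      Cfsg.Agent.Lib.Helper82.isChar_one_eq (isCharacter_of_isIrrCharacter ζ.2)] at this
    exact_mod_cast this
  have hO' := isOrbitSum h he hs ζ' (by rw [hdd]; exact hdeg) hκ₁ hne'
  have hζζ' : ζ ≠ ζ' := by
    rintro rfl
    obtain ⟨x, hx⟩ := hO.supp (tw θ κ₁) hne'
    rw [tw_coe, h.E.cj_zk_iff θ.2 hθP] at hx
    apply hn
    exact ⟨x, by rw [h.E.hat_cj, hx.2]⟩
  exact main_count h₀ he₀ hs₀ hζζ' (hs.agree ζ hY ζ' hY')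
    (sum_Z_mul_conj_eq_zero h.E hθP hO hO' hn)
    (sum_mN_mulConj_le e₀ (hO.sum_le (irr_classFunction (tw θ κ₀)) e₀ hf)
      (hO'.sum_le (irr_classFunction (tw θ κ₁)) e₀ hf)) (by omega) hf2 hstar

open Classical in
/-- the absolute value of an irreducible character of small degree is constant on `P` -/
theorem mulConj_const (hM : IsPModular p M) (P : Sylow p G) (hP : Nat.card (P : Subgroup G) = p)
    (hC : D.C = Subgroup.centralizer ((P : Subgroup G) : Set G)) (hZ : D.Z = (P : Subgroup G))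
    [Fintype D.Z] (hstar : ∀ K : Subgroup G, K.Normal → D.Z ≤ K → K = ⊤)
    (ζ : IrrCharacter G) (hdeg : 2 * charDegree (ζ : G → ℂ) + 1 < p) (z : D.Z) :
    mulConj (ζ : G → ℂ) ζ z = mulConj (ζ : G → ℂ) ζ 1 := by
  have e3 : ((D.inZ z : D.C) : G) = z := rfl
  have e4 : ((1 : D.C) : G) = 1 := rfl
  by_cases hall : ∀ ξ : IrrCharacter D.C, mN D ζ ξ ≠ 0 → D.PTriv ξ
  · have h1 : (ζ : G → ℂ) z = (ζ : G → ℂ) 1 := by
      have e1 := res_expand_mN ζ (D.inZ z)
      have e2 := res_expand_mN (D := D) ζ 1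
      rw [e3] at e1
      rw [e4] at e2
      rw [e1, e2]
      apply Finset.sum_congr rfl
      intro ξ _
      by_cases hξ : mN D ζ ξ = 0
      · rw [hξ]; simp
      · rw [hall ξ hξ z]
    unfold mulConj
    rw [h1]
  · push Not at hall
    obtain ⟨ξ₁, hξ₁, hnt⟩ := hall
    obtain ⟨θ₀, κ₀, hθ₀, hθP, hz, hκ⟩ := D.exists_zk ξ₁.2
    have hκ₀ := hκ hnt
    obtain ⟨B₀, f, X₀, Y₀, a₀, ε₀, h₀, he₀, hs₀⟩ :=
      exists_shape hM P hP hC hZ (oneC D) pTriv_oneC'
    have hf : Nat.card D.N = f * Nat.card D.C := by rw [← card_stab_oneC]; exact he₀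
    have hne : mN D ζ (D.zk θ₀ κ₀) ≠ 0 := by rw [← hz]; exact hξ₁
    by_cases hf2 : 2 ≤ f
    · exact (false_of_two_le hM P hP hC hZ hstar hf hf2 ζ hdeg ⟨θ₀, hθ₀⟩ hθP hκ₀ hne).elim
    · obtain ⟨B, e, X, Y, a, ε, h, he, hs⟩ := exists_shape hM P hP hC hZ ⟨θ₀, hθ₀⟩ hθP
      have hO := isOrbitSum h he hs ζ hdeg hκ₀ hne
      have hsum := hO.sum_le (irr_classFunction (tw ⟨θ₀, hθ₀⟩ κ₀)) f hf
      have hval : ∀ c : D.C, (ζ : G → ℂ) c = (ξ₁ : D.C → ℂ) c := by
        intro c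
        rw [res_expand_mN ζ c, Finset.sum_eq_single ξ₁]
        · have h1 : mN D ζ ξ₁ = 1 := by
            have := Finset.single_le_sum (f := fun ξ : IrrCharacter D.C => mN D ζ ξ)
              (fun _ _ => Nat.zero_le _) (Finset.mem_univ ξ₁)
            omega
          rw [h1]; simp
        · intro ξ _ hξ
          have h1 : mN D ζ ξ = 0 := by
            have h2 : mN D ζ ξ + mN D ζ ξ₁ ≤ ∑ ξ : IrrCharacter D.C, mN D ζ ξ := by
              rw [← Finset.sum_pair (f := fun ξ : IrrCharacter D.C => mN D ζ ξ) hξ]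
              exact Finset.sum_le_sum_of_subset (Finset.subset_univ _)
            omega
          rw [h1]; simp
        · intro h'; exact absurd (Finset.mem_univ _) h'
      have e1 := hval (D.inZ z)
      have e2 := hval 1
      rw [hz, D.zk_inZ hθP, e3] at e1
      rw [hz, D.zk_apply_one, e4] at e2
      have h5 := Cfsg.Agent.Lib.Helper82.isChar_linear_mul_conj
        (isCharacter_of_isIrrCharacter (D.isIrr_hat κ₀)) (D.hat_apply_one κ₀) (D.inZ z)
      rw [D.hat_inZ] at h5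
      unfold mulConj
      rw [e1, e2, map_mul]
      linear_combination (θ₀ 1 * conj (θ₀ 1)) * h5

/-- irreducible characters of small degree are linear -/
theorem linear_of_small (hM : IsPModular p M) (P : Sylow p G) (hP : Nat.card (P : Subgroup G) = p)
    (hC : D.C = Subgroup.centralizer ((P : Subgroup G) : Set G)) (hZ : D.Z = (P : Subgroup G))
    [Fintype D.Z] (hstar : ∀ K : Subgroup G, K.Normal → D.Z ≤ K → K = ⊤)
    (ζ : IrrCharacter G) (hdeg : 2 * charDegree (ζ : G → ℂ) + 1 < p) : (ζ : G → ℂ) 1 = 1 := by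
  have hc := isCharacter_of_isIrrCharacter ζ.2
  have h1 := eq_trivial_of_star hstar (isCharacter_mulConj hc hc)
    (fun z hz => mulConj_const hM P hP hC hZ hstar ζ hdeg ⟨z, hz⟩)
  have h2 := classInner_irr_self ζ.2
  unfold classInner at h2
  have h3 : ∀ g : G, (ζ : G → ℂ) g * conj ((ζ : G → ℂ) g)
      = (ζ : G → ℂ) 1 * conj ((ζ : G → ℂ) 1) := h1
  simp_rw [h3] at h2
  rw [Finset.sum_const, Finset.card_univ, nsmul_eq_mul, ← Nat.card_eq_fintype_card,
    inv_mul_cancel_left₀ (by exact_mod_cast (Nat.card_pos (α := G)).ne'),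
    Cfsg.Agent.Lib.Helper82.isChar_one_eq hc, Complex.conj_natCast] at h2
  rw [Cfsg.Agent.Lib.Helper82.isChar_one_eq hc]
  have h4 : charDegree (ζ : G → ℂ) * charDegree (ζ : G → ℂ) = 1 := by exact_mod_cast h2
  rw [Nat.eq_one_of_mul_eq_one_right h4]
  simp

end Cfsg.Agent.Lib.Helper21
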