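import Cfsg.Agent.Lib.Helper21.HalfVal
import Cfsg.Agent.Lib.Helper21.HalfCount
import Cfsg.Agent.Lib.Helper82.CharKer

/-!
# Brauer's bound: the contradiction in the principal block
-/

set_option autoImplicit false
set_option linter.unusedSectionVars false
set_option linter.style.haveILetI false
open Cfsg
open scoped ComplexConjugate

namespace Cfsg.Agent.Lib.Helper21

open Cfsg.Agent.Lib.Helper98.BL Cfsg.Agent.Lib.Helper20 Cfsg.Agent.Lib.Helper81
  Cfsg.Agent.Lib.Helper46 Cfsg.Agent.Lib.Helper25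

universe u

variable {G : Type u} [Group G] {D : Data G} {p : ℕ} [Fact p.Prime]
  {M : Ideal AlgInt} [Fintype G] [Fintype D.C] [Fintype D.N] [Fintype D.X]
  [Fintype (IrrCharacter D.C)] [Fintype (IrrCharacter G)]
  {B : Set (IrrCharacter G)}

/-- multiplicities as natural numbers -/
noncomputable def cN (φ ψ : G → ℂ) : ℕ := ⌊(classInner φ ψ).re⌋₊

theorem cN_spec {φ ψ : G → ℂ} (hφ : IsCharacter G φ) (hψ : IsIrrCharacter G ψ) :
    classInner φ ψ = (cN φ ψ : ℂ) := by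
  obtain ⟨n, hn⟩ := isCharacter_classInner_nat hφ hψ
  unfold cN
  rw [hn]
  simp

theorem char_expand {φ : G → ℂ} (hφ : IsCharacter G φ) (g : G) :
    φ g = ∑ ψ : IrrCharacter G, (cN φ ψ : ℂ) * (ψ : G → ℂ) g := by
  have h := congrFun (eq_sum_classInner_smul (isClassFunction_of_isCharacter hφ)) g
  rw [Finset.sum_apply] at h
  simp only [Pi.smul_apply, smul_eq_mul] at h
  calc φ g = ∑ ψ : IrrCharacter G, classInner φ (ψ : G → ℂ) * (ψ : G → ℂ) g := h
    _ = _ := by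
      apply Finset.sum_congr rfl
      intro ψ _
      rw [cN_spec hφ ψ.2]

theorem mm_expand {φ : G → ℂ} (hφ : IsCharacter G φ) (ξ : D.C → ℂ) :
    D.mm φ ξ = ∑ ψ : IrrCharacter G, (cN φ ψ : ℂ) * D.mm ψ ξ := by
  unfold Data.mm classInner
  simp_rw [mul_left_comm _ ((Nat.card D.C : ℂ)⁻¹) _]
  rw [← Finset.mul_sum]
  congr 1
  simp_rw [Finset.mul_sum]
  rw [Finset.sum_comm]
  apply Finset.sum_congr rfl
  intro c _
  simp only [Data.res_apply]
  rw [char_expand hφ, Finset.sum_mul]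
  apply Finset.sum_congr rfl
  intro ψ _
  ring

theorem mN_expand {φ : G → ℂ} (hφ : IsCharacter G φ) {ξ : D.C → ℂ} (hξ : IsIrrCharacter D.C ξ) :
    mN D φ ξ = ∑ ψ : IrrCharacter G, cN φ ψ * mN D ψ ξ := by
  have h := mm_expand (D := D) hφ ξ
  rw [mN_spec hφ hξ] at h
  have h2 : ∀ ψ : IrrCharacter G, D.mm ψ ξ = (mN D ψ ξ : ℂ) :=
    fun ψ => mN_spec (isCharacter_of_isIrrCharacter ψ.2) hξ
  simp_rw [h2] at h
  exact_mod_cast h

/-- the multiplicity of the trivial character of `Z` -/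
noncomputable def m0 (D : Data G) [Fintype D.Z] (ψ : G → ℂ) : ℕ :=
  ⌊(classInner (fun z : D.Z => ψ z) (fun _ => 1)).re⌋₊

theorem m0_spec (E : DExtra D p) [Fintype D.Z] {ψ : G → ℂ} (hψ : IsCharacter G ψ) :
    ∑ z : D.Z, ψ z = (p : ℂ) * (m0 D ψ : ℂ) := by
  have h1 : IsCharacter D.Z (fun z : D.Z => ψ z) :=
    Cfsg.Agent.Lib.Helper82.isChar_comp_hom hψ D.Z.subtype
  obtain ⟨n, hn⟩ := isCharacter_classInner_nat h1 Cfsg.Agent.Lib.Helper83.isIrr_trivial
  have h2 : m0 D ψ = n := by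
    unfold m0
    rw [hn]
    simp
  rw [h2, ← hn]
  unfold classInner
  rw [E.cardZ]
  have hp0 : (p : ℂ) ≠ 0 := by exact_mod_cast (Fact.out : p.Prime).ne_zero
  rw [mul_inv_cancel_left₀ hp0]
  simp

theorem classInner_mulConj_one (ζ ζ' : G → ℂ) :
    classInner (mulConj ζ ζ') (fun _ => 1) = classInner ζ ζ' := by
  unfold classInner mulConj
  simp

variable {θ : IrrCharacter D.C} {f : ℕ} {X Y : Set (IrrCharacter G)} {a : IrrCharacter G → ℤ}
  {ε : ℤ}

open Classical in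
theorem sum_kcol_X (h : BCtx D p M B θ)
    (hs : CShape p f (relX D θ) (fun κ : {κ : D.X // κ ≠ 1} => kcol D θ κ.1) B X Y a ε)
    {χ : IrrCharacter G} (hχ : χ ∈ X) : ∑ κ : D.X, kcol D θ κ χ = ((p : ℤ) - 1) * a χ := by
  have hp1 : 1 < p := (Fact.out : p.Prime).one_lt
  have hcardΞ : Fintype.card {κ : D.X // κ ≠ 1} = p - 1 := by
    rw [Fintype.card_subtype, Finset.filter_ne', Finset.card_erase_of_mem (Finset.mem_univ _),
      Finset.card_univ, cardX_eq h.E]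
  have hpc : ((p - 1 : ℕ) : ℤ) = (p : ℤ) - 1 := by
    rw [Nat.cast_sub hp1.le]; simp
  rw [sum_kcol, Finset.sum_congr rfl (fun ξ _ => hs.colX χ hχ ξ), Finset.sum_const,
    Finset.card_univ, hcardΞ, nsmul_eq_mul, hpc]

open Classical in
theorem sum_kcol_Y (h : BCtx D p M B θ)
    (he : Nat.card {x : D.N // (θ : D.C → ℂ) ∘ D.cj x = θ} = f * Nat.card D.C)
    (hs : CShape p f (relX D θ) (fun κ : {κ : D.X // κ ≠ 1} => kcol D θ κ.1) B X Y a ε)
    {ψ : IrrCharacter G} (hψ : ψ ∈ Y) : ∑ κ : D.X, kcol D θ κ ψ = (f : ℤ) * (-ε) := by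
  obtain ⟨ξ₀, hξ₀⟩ := hs.colY ψ hψ
  have hclass : Nat.card {ξ' : {κ : D.X // κ ≠ 1} // relX D θ ξ₀ ξ'} = f := by
    rw [← h.E.card_class θ.2 h.hθP f he ξ₀.2]
    apply Nat.card_congr
    exact Equiv.subtypeSubtypeEquivSubtype (p := fun κ : D.X => κ ≠ 1)
      (q := fun κ' : D.X => D.Cj (D.zk θ ξ₀.1) (D.zk θ κ'))
      (by
        rintro κ' hc rfl
        rw [D.zk_one] at hc
        exact h.E.not_cj_zk_self θ.2 h.hθP ξ₀.2 hc)
  rw [sum_kcol, Finset.sum_congr rfl (fun ξ _ => hξ₀ ξ), sum_ite_card', hclass]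

/-- a linear character which is trivial on `Z` is trivial, if `Z` normally generates `G` -/
theorem eq_trivial_of_star (hstar : ∀ K : Subgroup G, K.Normal → D.Z ≤ K → K = ⊤)
    {χ : G → ℂ} (hχ : IsCharacter G χ) (hZ : ∀ z ∈ D.Z, χ z = χ 1) (g : G) : χ g = χ 1 := by
  have h1 := hstar (Cfsg.Agent.Lib.Helper82.charKer χ hχ) inferInstance
    (fun z hz => Cfsg.Agent.Lib.Helper82.mem_charKer.2 (hZ z hz))
  have h2 : g ∈ Cfsg.Agent.Lib.Helper82.charKer χ hχ := by rw [h1]; trivial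
  exact Cfsg.Agent.Lib.Helper82.mem_charKer.1 h2

theorem singular_of_mem_Z (E : DExtra D p) {z : G} (hz : z ∈ D.Z) (h1 : z ≠ 1) :
    p ∣ orderOf z := by
  have h2 : orderOf (⟨z, hz⟩ : D.Z) ∣ p := by
    rw [← E.cardZ]; exact orderOf_dvd_natCard _
  rw [Subgroup.orderOf_mk] at h2
  rcases (Nat.dvd_prime (Fact.out : p.Prime)).1 h2 with h3 | h3
  · exact absurd (orderOf_eq_one_iff.1 h3) h1
  · rw [h3]

open Classical in
/-- **The contradiction in the principal block.** -/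
theorem main_count (h : BCtx D p M B (oneC D))
    (he : Nat.card {x : D.N // ((oneC D : IrrCharacter D.C) : D.C → ℂ) ∘ D.cj x = oneC D}
      = f * Nat.card D.C)
    (hs : CShape p f (relX D (oneC D)) (fun κ : {κ : D.X // κ ≠ 1} => kcol D (oneC D) κ.1)
      B X Y a ε)
    [Fintype D.Z] {ζ ζ' : IrrCharacter G} (hne : ζ ≠ ζ')
    (hag : ∀ g : G, ¬ p ∣ orderOf g → (ζ : G → ℂ) g = (ζ' : G → ℂ) g)
    (horth : ∑ z : D.Z, (ζ : G → ℂ) z * conj ((ζ' : G → ℂ) z) = 0)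
    (hbound : ∑ κ : D.X, mN D (mulConj ζ ζ') (D.hat κ) ≤ f * f)
    (hpf : 2 * f + 1 < p) (hf2 : 2 ≤ f)
    (hstar : ∀ K : Subgroup G, K.Normal → D.Z ≤ K → K = ⊤) : False := by
  have hp : p.Prime := Fact.out
  have hp1 : ¬ p ∣ orderOf (1 : G) := by
    rw [orderOf_one, Nat.dvd_one]; exact hp.one_lt.ne'
  have hcζ := isCharacter_of_isIrrCharacter ζ.2
  have hcζ' := isCharacter_of_isIrrCharacter ζ'.2
  have hφ₁ := isCharacter_mulConj hcζ hcζ
  have hφ₂ := isCharacter_mulConj hcζ hcζ'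
  have hΔ0 : ∀ g, ¬ p ∣ orderOf g → (mulConj (ζ : G → ℂ) ζ - mulConj (ζ : G → ℂ) ζ') g = 0 := by
    intro g hg
    simp only [Pi.sub_apply, mulConj]
    rw [hag g hg]; ring
  have hΔ1 : classInner (mulConj (ζ : G → ℂ) ζ - mulConj (ζ : G → ℂ) ζ') (fun _ => 1) = 1 := by
    rw [classInner_sub_left, classInner_mulConj_one, classInner_mulConj_one,
      classInner_irr_self ζ.2, classInner_irr_ne ζ.2 ζ'.2 (fun h => hne (Subtype.ext h)), sub_zero]
  have hΔψ : ∀ ψ : IrrCharacter G, classInner (mulConj (ζ : G → ℂ) ζ - mulConj (ζ : G → ℂ) ζ') ψ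
      = (cN (mulConj (ζ : G → ℂ) ζ) ψ : ℂ) - (cN (mulConj (ζ : G → ℂ) ζ') ψ : ℂ) := by
    intro ψ
    rw [classInner_sub_left, cN_spec hφ₁ ψ.2, cN_spec hφ₂ ψ.2]
  have hd : ∀ ψ : IrrCharacter G, (ψ : G → ℂ) 1 = (charDegree (ψ : G → ℂ) : ℂ) :=
    fun ψ => Cfsg.Agent.Lib.Helper82.isChar_one_eq (isCharacter_of_isIrrCharacter ψ.2)
  have hYne : (Finset.univ.filter (· ∈ Y)).Nonempty := by
    rw [← Finset.card_pos, ← Fintype.card_subtype]
    have h1 := hs.cardY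
    rw [Nat.card_eq_fintype_card] at h1
    have h2 : 0 < (p - 1) / f := Nat.div_pos (by omega) (by omega)
    have h3 : Fintype.card {x // x ∈ Y} = (p - 1) / f := by rw [← h1]
    omega
  have F1 : ∀ χ ∈ X, (cN (mulConj (ζ : G → ℂ) ζ) χ : ℤ) - cN (mulConj (ζ : G → ℂ) ζ') χ = a χ := by
    intro χ hχ
    have h1 := classInner_of_singular_const (F := (χ : G → ℂ)) hΔ0 (a χ : ℂ)
      (fun g hg => val_X h hs hχ hg)
    rw [hΔ1, hΔψ, mul_one, map_intCast] at h1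
    exact_mod_cast h1
  have F3 : ∀ ψ : IrrCharacter G, cN (mulConj (ζ : G → ℂ) ζ') ψ * m0 D (ψ : G → ℂ) = 0 := by
    have h1 : ∑ z : D.Z, mulConj (ζ : G → ℂ) ζ' z = 0 := horth
    simp_rw [char_expand hφ₂] at h1
    rw [Finset.sum_comm] at h1
    simp_rw [← Finset.mul_sum, m0_spec h.E (isCharacter_of_isIrrCharacter (Subtype.prop _))] at h1
    have h2 : ∑ ψ : IrrCharacter G, cN (mulConj (ζ : G → ℂ) ζ') ψ * (p * m0 D (ψ : G → ℂ)) = 0 := by
      exact_mod_cast h1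
    intro ψ
    have h3 := (Finset.sum_eq_zero_iff.1 h2) ψ (Finset.mem_univ _)
    rcases Nat.mul_eq_zero.1 h3 with h4 | h4
    · rw [h4, zero_mul]
    · rcases Nat.mul_eq_zero.1 h4 with h5 | h5
      · exact absurd h5 hp.ne_zero
      · rw [h5, mul_zero]
  refine count_false (Finset.univ.filter (· ∈ X)) (Finset.univ.filter (· ∈ Y)) a ε
    (fun ψ => charDegree (ψ : G → ℂ)) (fun ψ => m0 D (ψ : G → ℂ))
    (fun ψ => cN (mulConj (ζ : G → ℂ) ζ) ψ) (fun ψ => cN (mulConj (ζ : G → ℂ) ζ') ψ)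
    p f hp hs.dvd hpf hf2 ?_ hYne (fun χ hχ => hs.sign χ (Finset.mem_filter.1 hχ).2) hs.eps
    (fun χ hχ => F1 χ (Finset.mem_filter.1 hχ).2) ?_ F3 ?_ ?_ ?_ ?_ ?_
    (fun χ _ => Cfsg.Agent.Lib.Helper82.isIrr_charDegree_pos χ.2)
  · rw [← Fintype.card_subtype]
    have h1 := hs.cardX
    rw [Nat.card_eq_fintype_card] at h1
    rw [← h1]
  · -- F2
    obtain ⟨ξ₁, hξ₁⟩ := hYne
    have hξ₁' := (Finset.mem_filter.1 hξ₁).2
    have h1 := classInner_of_singular_const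
      (F := ∑ ξ ∈ Finset.univ.filter (· ∈ Y), ((ξ : IrrCharacter G) : G → ℂ)) hΔ0 (-(ε : ℂ))
      (fun g hg => by
        rw [Finset.sum_apply, Finset.sum_filter]
        exact sum_Y_val h hs hξ₁' hg)
    rw [hΔ1, classInner_sum_right, mul_one, map_neg, map_intCast] at h1
    simp_rw [hΔψ] at h1
    exact_mod_cast h1
  · -- F4
    intro χ hχ
    have hχ' := (Finset.mem_filter.1 hχ).2
    have hχB : χ ∈ B := by rw [hs.union]; exact Or.inl hχ'
    have h1 := sum_Z_eq h hχB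
    rw [m0_spec h.E (isCharacter_of_isIrrCharacter χ.2), hd] at h1
    have h2 := sum_kcol_X h hs hχ'
    have h3 : ∑ κ : D.X, (kcol D (oneC D) κ χ : ℂ) = (((p : ℤ) - 1) * a χ : ℤ) := by
      rw [← h2]; push_cast; rfl
    rw [h3] at h1
    exact_mod_cast h1
  · -- F5
    intro χ hχ
    have hχ' := (Finset.mem_filter.1 hχ).2
    have hχB : χ ∈ B := by rw [hs.union]; exact Or.inr hχ'
    have h1 := sum_Z_eq h hχB
    rw [m0_spec h.E (isCharacter_of_isIrrCharacter χ.2), hd] at h1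
    have h2 := sum_kcol_Y h he hs hχ'
    have h3 : ∑ κ : D.X, (kcol D (oneC D) κ χ : ℂ) = (((f : ℤ) * (-ε) : ℤ) : ℂ) := by
      rw [← h2]; push_cast; rfl
    rw [h3] at h1
    have h4 : (p : ℤ) * (m0 D (χ : G → ℂ) : ℤ) = charDegree (χ : G → ℂ) + (f : ℤ) * (-ε) := by
      exact_mod_cast h1
    rw [h4]; ring
  · -- F6
    intro ξ hξ
    have hξ' := (Finset.mem_filter.1 hξ).2
    have h1 := hs.rel ξ hξ' 1 hp1
    rw [finsum_mem_irr, ← Finset.sum_filter] at h1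
    simp_rw [hd] at h1
    exact_mod_cast h1
  · -- F7
    refine le_trans ?_ hbound
    have hm : ∀ χ ∈ (Finset.univ.filter (· ∈ X)).filter (fun χ => a χ = -1), ∀ κ : D.X, κ ≠ 1 →
        1 ≤ cN (mulConj (ζ : G → ℂ) ζ') χ * mN D χ (D.hat κ) := by
      intro χ hχ κ hκ
      rw [Finset.mem_filter, Finset.mem_filter] at hχ
      have h1 := F1 χ hχ.1.2
      have h2 := hs.colX χ hχ.1.2 ⟨κ, hκ⟩
      simp only at h2
      rw [kcol_eq_mN, zk_oneC] at h2
      have h3 : 1 ≤ cN (mulConj (ζ : G → ℂ) ζ') χ := by omega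
      have h4 : 1 ≤ mN D χ (D.hat κ) := by omega
      exact Nat.mul_pos h3 h4
    calc (p - 1) * ((Finset.univ.filter (· ∈ X)).filter (fun χ => a χ = -1)).card
        = ∑ κ ∈ (Finset.univ : Finset D.X).erase 1,
            ∑ χ ∈ (Finset.univ.filter (· ∈ X)).filter (fun χ => a χ = -1), 1 := by
          rw [Finset.sum_const, Finset.card_erase_of_mem (Finset.mem_univ _), Finset.card_univ,
            cardX_eq h.E, smul_eq_mul, Finset.sum_const, smul_eq_mul, mul_one]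
      _ ≤ ∑ κ ∈ (Finset.univ : Finset D.X).erase 1,
            ∑ χ ∈ (Finset.univ.filter (· ∈ X)).filter (fun χ => a χ = -1),
              cN (mulConj (ζ : G → ℂ) ζ') χ * mN D χ (D.hat κ) :=
          Finset.sum_le_sum (fun κ hκ => Finset.sum_le_sum
            (fun χ hχ => hm χ hχ κ (Finset.ne_of_mem_erase hκ)))
      _ ≤ ∑ κ ∈ (Finset.univ : Finset D.X).erase 1,
            ∑ χ : IrrCharacter G, cN (mulConj (ζ : G → ℂ) ζ') χ * mN D χ (D.hat κ) :=
          Finset.sum_le_sum (fun κ _ => Finset.sum_le_sum_of_subset (Finset.subset_univ _))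
      _ = ∑ κ ∈ (Finset.univ : Finset D.X).erase 1, mN D (mulConj (ζ : G → ℂ) ζ') (D.hat κ) :=
          Finset.sum_congr rfl (fun κ _ => (mN_expand hφ₂ (D.isIrr_hat κ)).symm)
      _ ≤ ∑ κ : D.X, mN D (mulConj (ζ : G → ℂ) ζ') (D.hat κ) :=
          Finset.sum_le_sum_of_subset (Finset.subset_univ _)
  · -- F8
    have key : ∀ χ ∈ X, a χ = 1 → charDegree (χ : G → ℂ) = 1 → ∀ g, (χ : G → ℂ) g = 1 := by
      intro χ hχ ha hd1 g
      have h1 : (χ : G → ℂ) 1 = 1 := by rw [hd, hd1]; simp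
      rw [eq_trivial_of_star hstar (isCharacter_of_isIrrCharacter χ.2) ?_ g, h1]
      intro z hz
      by_cases hz1 : z = 1
      · rw [hz1]
      · rw [val_X h hs hχ (singular_of_mem_Z h.E hz hz1), ha, h1]; simp
    intro χ hχ χ' hχ' ha hd1 ha' hd1'
    apply Subtype.ext
    funext g
    rw [key χ (Finset.mem_filter.1 hχ).2 ha hd1 g, key χ' (Finset.mem_filter.1 hχ').2 ha' hd1' g]

end Cfsg.Agent.Lib.Helper21
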