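import Cfsg.Agent.Lib.Helper21.HalfStr

/-!
# Blocks of defect one: two exceptional characters of small degree
-/

set_option autoImplicit false
set_option linter.unusedSectionVars false
set_option linter.style.haveILetI false
open Cfsg
open scoped ComplexConjugate

namespace Cfsg.Agent.Lib.Helper21

open Cfsg.Agent.Lib.Helper98.BL Cfsg.Agent.Lib.Helper20 Cfsg.Agent.Lib.Helper81
  Cfsg.Agent.Lib.Helper46 Cfsg.Agent.Lib.Helper25

universe u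

variable {G : Type u} [Group G] {D : Data G} {p : ℕ} [Fact p.Prime]
  {M : Ideal AlgInt} [Fintype G] [Fintype D.C] [Fintype D.N] [Fintype D.X]
  [Fintype (IrrCharacter D.C)] [Fintype (IrrCharacter G)]
  {B : Set (IrrCharacter G)} {θ : IrrCharacter D.C}

theorem res_expand_mN (χ : IrrCharacter G) (c : D.C) :
    (χ : G → ℂ) c = ∑ ξ : IrrCharacter D.C, (mN D χ ξ : ℂ) * (ξ : D.C → ℂ) c := by
  have h := res_expand χ c
  simp_rw [mN_irr] at h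
  exact h

/-- the restrictions to `Z` are orthogonal -/
theorem sum_Z_mul_conj_eq_zero (E : DExtra D p) (hθP : D.PTriv θ) {ζ ζ' : IrrCharacter G}
    {κ₀ κ₁ : D.X} (h : IsOrbitSum D ζ (D.zk θ κ₀)) (h' : IsOrbitSum D ζ' (D.zk θ κ₁))
    (hn : ¬ D.Cj (D.hat κ₀) (D.hat κ₁)) [Fintype D.Z] :
    ∑ z : D.Z, (ζ : G → ℂ) z * conj ((ζ' : G → ℂ) z) = 0 := by
  classical
  have hval : ∀ (ξ : IrrCharacter D.C) (κ : D.X), D.Cj (D.zk θ κ) ξ → ∃ x : D.N, ∀ z : D.Z,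
      (ξ : D.C → ℂ) (D.inZ z) = ((E.xa x κ z : ℂˣ) : ℂ) * (θ : D.C → ℂ) 1 := by
    rintro ξ κ ⟨x, hx⟩
    refine ⟨x, fun z => ?_⟩
    rw [← hx, E.zk_cj, D.zk_inZ (E.pTriv_cj hθP x)]
    simp
  have h1 : ∀ z : D.Z, (ζ : G → ℂ) z * conj ((ζ' : G → ℂ) z)
      = ∑ ξ : IrrCharacter D.C, ∑ ξ' : IrrCharacter D.C, ((mN D ζ ξ : ℂ) * (mN D ζ' ξ' : ℂ)) *
        ((ξ : D.C → ℂ) (D.inZ z) * conj ((ξ' : D.C → ℂ) (D.inZ z))) := by
    intro z
    have e1 := res_expand_mN ζ (D.inZ z)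
    have e2 := res_expand_mN ζ' (D.inZ z)
    have e3 : ((D.inZ z : D.C) : G) = z := rfl
    rw [e3] at e1 e2
    rw [e1, e2, map_sum, Finset.sum_mul_sum]
    apply Finset.sum_congr rfl; intro ξ _
    apply Finset.sum_congr rfl; intro ξ' _
    rw [map_mul, Complex.conj_natCast]
    ring
  simp_rw [h1]
  rw [Finset.sum_comm]
  apply Finset.sum_eq_zero; intro ξ _
  rw [Finset.sum_comm]
  apply Finset.sum_eq_zero; intro ξ' _
  rw [← Finset.mul_sum]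
  by_cases hξ : mN D ζ ξ = 0
  · rw [hξ]; simp
  by_cases hξ' : mN D ζ' ξ' = 0
  · rw [hξ']; simp
  obtain ⟨x, hx⟩ := hval ξ κ₀ (h.supp ξ hξ)
  obtain ⟨y, hy⟩ := hval ξ' κ₁ (h'.supp ξ' hξ')
  have hne : E.xa x κ₀ ≠ E.xa y κ₁ := by
    intro heq
    apply hn
    have c1 : D.Cj (D.hat κ₀) (D.hat (E.xa x κ₀)) := ⟨x, E.hat_cj x κ₀⟩
    have c2 : D.Cj (D.hat κ₁) (D.hat (E.xa y κ₁)) := ⟨y, E.hat_cj y κ₁⟩
    rw [heq] at c1
    exact cj_trans c1 c2.symm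
  have h2 : ∑ z : D.Z, (ξ : D.C → ℂ) (D.inZ z) * conj ((ξ' : D.C → ℂ) (D.inZ z))
      = ((θ : D.C → ℂ) 1 * conj ((θ : D.C → ℂ) 1)) *
        ∑ z : D.Z, ((E.xa x κ₀ z : ℂˣ) : ℂ) * conj ((E.xa y κ₁ z : ℂˣ) : ℂ) := by
    rw [Finset.mul_sum]
    apply Finset.sum_congr rfl; intro z _
    rw [hx z, hy z, map_mul]
    ring
  rw [h2, sum_hom_orth, if_neg hne]
  simp

/-- the product `ζ ζ̄'` -/
def mulConj (ζ ζ' : G → ℂ) : G → ℂ := fun g => ζ g * conj (ζ' g)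

theorem isCharacter_mulConj {ζ ζ' : G → ℂ} (h : IsCharacter G ζ) (h' : IsCharacter G ζ') :
    IsCharacter G (mulConj ζ ζ') := isCharacter_mul h (isCharacter_conj h')

/-- multiplicities of the inflated linear characters in `ζ ζ̄'` -/
theorem mm_mulConj (ζ ζ' : IrrCharacter G) (κ : D.X) :
    D.mm (mulConj ζ ζ') (D.hat κ)
      = ∑ ξ' : IrrCharacter D.C, (mN D ζ' ξ' : ℂ) * (mN D ζ (D.zk ξ' κ) : ℂ) := by
  have hc := isCharacter_of_isIrrCharacter ζ.2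
  have h1 : ∀ ξ' : IrrCharacter D.C, (mN D ζ (D.zk ξ' κ) : ℂ)
      = (Nat.card D.C : ℂ)⁻¹ * ∑ c : D.C, (ζ : G → ℂ) c * conj (D.hat κ c * (ξ' : D.C → ℂ) c) := by
    intro ξ'
    rw [← mN_spec hc (D.isIrr_zk ξ'.2 κ)]
    rfl
  simp_rw [h1]
  unfold Data.mm classInner
  simp_rw [mul_left_comm _ ((Nat.card D.C : ℂ)⁻¹) _]
  rw [← Finset.mul_sum]
  congr 1
  simp_rw [Finset.mul_sum]
  rw [Finset.sum_comm]
  apply Finset.sum_congr rfl
  intro c _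
  have e2 := res_expand_mN ζ' c
  simp only [Data.res_apply, mulConj]
  rw [e2, map_sum, Finset.mul_sum, Finset.sum_mul]
  apply Finset.sum_congr rfl
  intro ξ' _
  rw [map_mul, map_mul, Complex.conj_natCast]
  ring

theorem tw_injective' (ξ : IrrCharacter D.C) : Function.Injective (tw ξ) := by
  obtain ⟨ζ₀, κ₂, h1, h2, h3, -⟩ := D.exists_zk ξ.2
  have h4 : ξ = tw ⟨ζ₀, h1⟩ κ₂ := Subtype.ext h3
  intro κ κ' hk
  rw [h4, tw_tw, tw_tw] at hk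
  exact mul_right_cancel (tw_injective (ξ₀ := ⟨ζ₀, h1⟩) h2 hk)

/-- the total multiplicity of the inflated linear characters in `ζ ζ̄'` -/
theorem sum_mN_mulConj_le {ζ ζ' : IrrCharacter G} (f : ℕ)
    (h : ∑ ξ : IrrCharacter D.C, mN D ζ ξ ≤ f) (h' : ∑ ξ : IrrCharacter D.C, mN D ζ' ξ ≤ f) :
    ∑ κ : D.X, mN D (mulConj ζ ζ') (D.hat κ) ≤ f * f := by
  classical
  have hc := isCharacter_mulConj (isCharacter_of_isIrrCharacter ζ.2)
    (isCharacter_of_isIrrCharacter ζ'.2)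
  have h1 : ∀ κ : D.X, mN D (mulConj ζ ζ') (D.hat κ)
      = ∑ ξ' : IrrCharacter D.C, mN D ζ' ξ' * mN D ζ (D.zk ξ' κ) := by
    intro κ
    have h2 := mm_mulConj ζ ζ' κ
    rw [mN_spec hc (D.isIrr_hat κ)] at h2
    exact_mod_cast h2
  simp_rw [h1]
  rw [Finset.sum_comm]
  simp_rw [← Finset.mul_sum]
  have h3 : ∀ ξ' : IrrCharacter D.C, ∑ κ : D.X, mN D ζ (D.zk ξ' κ) ≤ f := by
    intro ξ'
    refine le_trans ?_ h
    have h4 : ∑ κ : D.X, mN D ζ (D.zk ξ' κ)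
        = ∑ ξ ∈ Finset.univ.image (tw ξ'), mN D ζ ξ := by
      rw [Finset.sum_image (fun a _ b _ hab => tw_injective' ξ' hab)]
      rfl
    rw [h4]
    exact Finset.sum_le_sum_of_subset (Finset.subset_univ _)
  calc ∑ ξ' : IrrCharacter D.C, mN D ζ' ξ' * ∑ κ : D.X, mN D ζ (D.zk ξ' κ)
      ≤ ∑ ξ' : IrrCharacter D.C, mN D ζ' ξ' * f :=
        Finset.sum_le_sum (fun ξ' _ => Nat.mul_le_mul_left _ (h3 ξ'))
    _ = (∑ ξ' : IrrCharacter D.C, mN D ζ' ξ') * f := by rw [Finset.sum_mul]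
    _ ≤ f * f := Nat.mul_le_mul_right _ h'

open Classical in
/-- every class of nontrivial linear characters of `Z` labels an exceptional character -/
theorem exists_companion (h : BCtx D p M B θ) {e : ℕ} {X Y : Set (IrrCharacter G)}
    {a : IrrCharacter G → ℤ} {ε : ℤ}
    (hs : CShape p e (relX D θ) (fun κ : {κ : D.X // κ ≠ 1} => kcol D θ κ.1) B X Y a ε)
    {ζ : IrrCharacter G} (hζ : ζ ∈ Y) (hε : ε = 1) {κ₁ : D.X} (hκ₁ : κ₁ ≠ 1) :
    ∃ ζ' ∈ Y, mN D ζ' (D.zk θ κ₁) ≠ 0 := by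
  have hp1 : ¬ p ∣ orderOf (1 : G) := by
    rw [orderOf_one, Nat.dvd_one]; exact (Fact.out : p.Prime).one_lt.ne'
  have hex : ∃ ψ ∈ Y, kcol D θ κ₁ ψ ≠ 0 := by
    by_contra hcon
    push Not at hcon
    have hz : Cfsg.Agent.Lib.Helper83.zcomb (kcol D θ κ₁) 1 = 0 := by
      rw [zcomb_kcol D θ.2]; exact h.E.ind_vanish θ κ₁ hp1
    rw [Cfsg.Agent.Lib.Helper83.zcomb_apply] at hz
    have hrel := hs.rel ζ hζ 1 hp1
    rw [finsum_mem_irr] at hrel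
    have h2 : ∑ χ : IrrCharacter G, (kcol D θ κ₁ χ : ℂ) * (χ : G → ℂ) 1
        = ∑ χ : IrrCharacter G, if χ ∈ X then (a χ : ℂ) * (χ : G → ℂ) 1 else 0 := by
      apply Finset.sum_congr rfl
      intro χ _
      split_ifs with hX
      · have := hs.colX χ hX ⟨κ₁, hκ₁⟩
        simp only at this
        rw [this]
      · have h3 : kcol D θ κ₁ χ = 0 := by
          by_contra h0
          have h4 := h.mem_of_kcol_ne κ₁ χ h0
          rw [hs.union] at h4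
          rcases h4 with h4 | h4
          · exact hX h4
          · exact h0 (hcon χ h4)
        rw [h3]; simp
    rw [h2, ← hrel, hε] at hz
    have h5 := DExtra.irr_one_ne ζ.2
    simp at hz
    exact h5 hz
  obtain ⟨ψ, hψ, hne⟩ := hex
  refine ⟨ψ, hψ, ?_⟩
  obtain ⟨ξ₀, hξ₀⟩ := hs.colY ψ hψ
  have h1 := hξ₀ ⟨κ₁, hκ₁⟩
  simp only at h1
  have h2 := kcol_eq_mN θ κ₁ ψ
  split_ifs at h1
  · omega
  · exact absurd h1 hne

end Cfsg.Agent.Lib.Helper21
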