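import Cfsg.Agent.Lib.Helper21.HalfCtx

/-!
# Blocks of defect one: the restriction to `C_G(P)` of an irreducible character of small degree
-/

set_option autoImplicit false
set_option linter.unusedSectionVars false
set_option linter.style.haveILetI false
open Cfsg
open scoped ComplexConjugate

namespace Cfsg.Agent.Lib.Helper21

open Cfsg.Agent.Lib.Helper98.BL Cfsg.Agent.Lib.Helper20 Cfsg.Agent.Lib.Helper81
  Cfsg.Agent.Lib.Helper46 Cfsg.Agent.Lib.Helper25

universe u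

variable {G : Type u} [Group G] {D : Data G} {p : ℕ} [Fact p.Prime]
  {M : Ideal AlgInt} [Fintype G] [Fintype D.C] [Fintype D.N] [Fintype D.X]
  [Fintype (IrrCharacter D.C)] [Fintype (IrrCharacter G)]

/-- the multiplicity as a natural number -/
noncomputable def mN (D : Data G) [Fintype D.C] (χ : G → ℂ) (ξ : D.C → ℂ) : ℕ :=
  ⌊(D.mm χ ξ).re⌋₊

theorem mN_spec {χ : G → ℂ} (hχ : IsCharacter G χ) {ξ : D.C → ℂ} (hξ : IsIrrCharacter D.C ξ) :
    D.mm χ ξ = (mN D χ ξ : ℂ) := by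
  obtain ⟨n, hn⟩ := D.mm_nat hχ hξ
  unfold mN
  rw [hn]
  simp

theorem mN_irr (χ : IrrCharacter G) (ξ : IrrCharacter D.C) :
    D.mm χ ξ = (mN D χ ξ : ℂ) := mN_spec (isCharacter_of_isIrrCharacter χ.2) ξ.2

/-- the degree in terms of the multiplicities -/
theorem degree_eq_sum_mN (χ : IrrCharacter G) :
    charDegree (χ : G → ℂ)
      = ∑ ξ : IrrCharacter D.C, mN D χ ξ * charDegree (ξ : D.C → ℂ) := by
  have h1 := res_expand (D := D) χ 1
  have h6 : ((1 : D.C) : G) = 1 := rfl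
  rw [h6, Cfsg.Agent.Lib.Helper82.isChar_one_eq (isCharacter_of_isIrrCharacter χ.2)] at h1
  have h2 : ∀ ξ : IrrCharacter D.C, D.mm χ ξ * (ξ : D.C → ℂ) 1
      = ((mN D χ ξ * charDegree (ξ : D.C → ℂ) : ℕ) : ℂ) := by
    intro ξ
    rw [mN_irr, Cfsg.Agent.Lib.Helper82.isChar_one_eq (isCharacter_of_isIrrCharacter ξ.2)]
    push_cast
    ring
  simp_rw [h2] at h1
  exact_mod_cast h1

/-- counting constituents -/
theorem card_le_degree (χ : IrrCharacter G) {ι : Type*} (S : Finset ι) (f : ι → IrrCharacter D.C)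
    (hf : Set.InjOn f S) (h : ∀ i ∈ S, mN D χ (f i) ≠ 0) : S.card ≤ charDegree (χ : G → ℂ) := by
  classical
  rw [degree_eq_sum_mN (D := D) χ, ← Finset.card_image_of_injOn hf, Finset.card_eq_sum_ones]
  calc ∑ ξ ∈ S.image f, 1 ≤ ∑ ξ ∈ S.image f, mN D χ ξ * charDegree (ξ : D.C → ℂ) := by
        apply Finset.sum_le_sum
        intro ξ hξ
        obtain ⟨i, hi, rfl⟩ := Finset.mem_image.1 hξ
        have h1 := h i hi
        have h2 := Cfsg.Agent.Lib.Helper82.isIrr_charDegree_pos (f i).2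
        exact Nat.mul_pos (Nat.pos_of_ne_zero h1) h2
    _ ≤ ∑ ξ : IrrCharacter D.C, mN D χ ξ * charDegree (ξ : D.C → ℂ) :=
        Finset.sum_le_sum_of_subset (Finset.subset_univ _)

theorem kcol_eq_mN (θ : IrrCharacter D.C) (κ : D.X) (χ : IrrCharacter G) :
    kcol D θ κ χ = (mN D χ θ : ℤ) - mN D χ (D.zk θ κ) := by
  have h := kcol_eq_mm D θ.2 κ χ
  rw [mN_irr χ θ, mN_spec (isCharacter_of_isIrrCharacter χ.2) (D.isIrr_zk θ.2 κ)] at h
  exact_mod_cast h

theorem cardX_eq (E : DExtra D p) : Fintype.card D.X = p := by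
  haveI : Finite D.Z := Nat.finite_of_card_ne_zero
    (by rw [E.cardZ]; exact (Fact.out : p.Prime).ne_zero)
  rw [← Nat.card_eq_fintype_card, card_hom (Z_comm D), E.cardZ]

/-- if all the twists occur the degree is at least `p` -/
theorem not_all_twists (E : DExtra D p) (χ : IrrCharacter G) (hdeg : charDegree (χ : G → ℂ) < p)
    {ξ₀ : IrrCharacter D.C} (hξ : D.PTriv ξ₀) : ¬ ∀ κ, mN D χ (D.zk ξ₀ κ) ≠ 0 := by
  intro h
  have := card_le_degree χ Finset.univ (tw ξ₀) (tw_injective hξ).injOn (fun κ _ => h κ)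
  rw [Finset.card_univ, cardX_eq E] at this
  omega

variable {B : Set (IrrCharacter G)} {θ : IrrCharacter D.C}

open Classical in
/-- **Structure of a character of small degree** along the twists of `θ`. -/
theorem str (h : BCtx D p M B θ) {e : ℕ} {X Y : Set (IrrCharacter G)} {a : IrrCharacter G → ℤ}
    {ε : ℤ} (he : Nat.card {x : D.N // (θ : D.C → ℂ) ∘ D.cj x = θ} = e * Nat.card D.C)
    (hs : CShape p e (relX D θ) (fun κ : {κ : D.X // κ ≠ 1} => kcol D θ κ.1) B X Y a ε)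
    (ζ : IrrCharacter G) (hdeg : 2 * charDegree (ζ : G → ℂ) + 1 < p) {κ₀ : D.X} (hκ₀ : κ₀ ≠ 1)
    (hne : mN D ζ (D.zk θ κ₀) ≠ 0) :
    ζ ∈ Y ∧ ε = 1 ∧ mN D ζ θ = 0 ∧ ∀ κ : D.X, κ ≠ 1 →
      mN D ζ (D.zk θ κ) = if D.Cj (D.zk θ κ₀) (D.zk θ κ) then 1 else 0 := by
  have hall := not_all_twists h.E ζ (by omega) h.hθP
  have hk : ∀ κ, (mN D ζ (D.zk θ κ) : ℤ) = mN D ζ θ - kcol D θ κ ζ := by
    intro κ; rw [kcol_eq_mN]; ring
  have hζB : ζ ∈ B := by
    by_contra hn
    apply hall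
    intro κ
    have h1 : kcol D θ κ ζ = 0 := by
      by_contra h0; exact hn (h.mem_of_kcol_ne κ ζ h0)
    have h2 : kcol D θ κ₀ ζ = 0 := by
      by_contra h0; exact hn (h.mem_of_kcol_ne κ₀ ζ h0)
    have h3 := hk κ
    have h4 := hk κ₀
    omega
  rw [hs.union] at hζB
  rcases hζB with hX | hY
  · exfalso
    have h1 : ∀ κ, κ ≠ 1 → mN D ζ (D.zk θ κ) ≠ 0 := by
      intro κ hκ
      have h2 := hs.colX ζ hX ⟨κ, hκ⟩
      have h3 := hs.colX ζ hX ⟨κ₀, hκ₀⟩
      simp only at h2 h3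
      have h4 := hk κ
      have h5 := hk κ₀
      omega
    have h2 := card_le_degree ζ (Finset.univ.erase 1) (tw θ) (tw_injective h.hθP).injOn
      (fun κ hκ => h1 κ (Finset.ne_of_mem_erase hκ))
    rw [Finset.card_erase_of_mem (Finset.mem_univ _), Finset.card_univ, cardX_eq h.E] at h2
    omega
  · obtain ⟨ξ₀, hξ₀⟩ := hs.colY ζ hY
    have hcol : ∀ κ (hκ : κ ≠ 1), kcol D θ κ ζ = if relX D θ ξ₀ ⟨κ, hκ⟩ then -ε else 0 :=
      fun κ hκ => hξ₀ ⟨κ, hκ⟩
    by_cases hr : relX D θ ξ₀ ⟨κ₀, hκ₀⟩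
    · have h0 := hcol κ₀ hκ₀
      rw [if_pos hr] at h0
      have h3 := hk κ₀
      have hm : mN D ζ θ = 0 := by
        by_contra hm
        apply hall
        intro κ
        by_cases hκ : κ = 1
        · rw [hκ, D.zk_one]; exact hm
        · have h1 := hcol κ hκ
          have h2 := hk κ
          rcases hs.eps with h4 | h4 <;> split_ifs at h1 <;> omega
      have hε : ε = 1 := by
        rcases hs.eps with h4 | h4
        · exact h4
        · omega
      refine ⟨hY, hε, hm, ?_⟩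
      intro κ hκ
      have h1 := hcol κ hκ
      have h2 := hk κ
      have hiff : relX D θ ξ₀ ⟨κ, hκ⟩ ↔ D.Cj (D.zk θ κ₀) (D.zk θ κ) :=
        ⟨fun h' => cj_trans (Data.Cj.symm hr) h', fun h' => cj_trans hr h'⟩
      simp only [hiff] at h1
      split_ifs at h1 ⊢ <;> omega
    · exfalso
      have h0 := hcol κ₀ hκ₀
      rw [if_neg hr] at h0
      have h3 := hk κ₀
      have hm : mN D ζ θ ≠ 0 := by omega
      rcases hs.eps with h4 | h4
      · apply hall
        intro κ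
        by_cases hκ : κ = 1
        · rw [hκ, D.zk_one]; exact hm
        · have h1 := hcol κ hκ
          have h2 := hk κ
          split_ifs at h1 <;> omega
      · have hcl := h.E.card_class θ.2 h.hθP e he ξ₀.2
        rw [Nat.card_eq_fintype_card, Fintype.card_subtype] at hcl
        have hS : ∀ κ ∈ Finset.univ.filter (fun κ : D.X => ¬ D.Cj (D.zk θ ξ₀.1) (D.zk θ κ)),
            mN D ζ (tw θ κ) ≠ 0 := by
          intro κ hκS
          have hκS' := (Finset.mem_filter.1 hκS).2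
          rw [tw_coe]
          by_cases hκ : κ = 1
          · rw [hκ, D.zk_one]; exact hm
          · have h1 := hcol κ hκ
            rw [if_neg (show ¬ relX D θ ξ₀ ⟨κ, hκ⟩ from hκS')] at h1
            have h2 := hk κ
            omega
        have h5 := card_le_degree ζ _ (tw θ) (tw_injective h.hθP).injOn hS
        have h6 := Finset.card_filter_add_card_filter_not (s := (Finset.univ : Finset D.X))
          (fun κ : D.X => D.Cj (D.zk θ ξ₀.1) (D.zk θ κ))
        rw [hcl, Finset.card_univ, cardX_eq h.E] at h6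
        have h7 : e ≤ p - 2 := by
          rw [← hcl]
          have h8 : Finset.univ.filter (fun κ : D.X => D.Cj (D.zk θ ξ₀.1) (D.zk θ κ))
              ⊆ (Finset.univ.erase (1 : D.X)).erase κ₀ := by
            intro κ hκ
            have hκ' := (Finset.mem_filter.1 hκ).2
            rw [Finset.mem_erase, Finset.mem_erase]
            refine ⟨?_, ?_, Finset.mem_univ _⟩
            · rintro rfl; exact hr hκ'
            · rintro rfl
              rw [D.zk_one] at hκ'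
              exact h.E.not_cj_zk_self θ.2 h.hθP ξ₀.2 hκ'
          have h9 := Finset.card_le_card h8
          rw [Finset.card_erase_of_mem (Finset.mem_erase.2 ⟨hκ₀, Finset.mem_univ _⟩),
            Finset.card_erase_of_mem (Finset.mem_univ _), Finset.card_univ, cardX_eq h.E] at h9
          omega
        obtain ⟨k, hk'⟩ := hs.dvd
        have hp2 : 2 ≤ p := (Fact.out : p.Prime).two_le
        have hk2 : 2 ≤ k := by
          rcases k with _ | _ | k
          · omega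
          · omega
          · omega
        have h10 : 2 * e ≤ p - 1 := by
          rw [hk']; nlinarith
        omega

/-- no constituents over the characters which are not conjugate to `θ` -/
theorem mN_eq_zero_of_not_cj (h : BCtx D p M B θ) (ζ : IrrCharacter G) (hζ : ζ ∈ B)
    (hdeg : charDegree (ζ : G → ℂ) < p) {ξ₀ : IrrCharacter D.C} (hξ : D.PTriv ξ₀)
    (hn : ¬ D.Cj θ ξ₀) (κ : D.X) : mN D ζ (D.zk ξ₀ κ) = 0 := by
  by_contra h0
  apply not_all_twists h.E ζ hdeg hξ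
  intro κ'
  have h1 := h.E.mm_const_of_not_cj h.hM B h.hB h.hBP θ h.hθP h.hind ζ hζ hξ hn
  have hc := isCharacter_of_isIrrCharacter ζ.2
  have h2 : (mN D ζ (D.zk ξ₀ κ') : ℂ) = mN D ζ (D.zk ξ₀ κ) := by
    rw [← mN_spec hc (D.isIrr_zk ξ₀.2 κ'), ← mN_spec hc (D.isIrr_zk ξ₀.2 κ), h1 κ', h1 κ]
  have h3 : mN D ζ (D.zk ξ₀ κ') = mN D ζ (D.zk ξ₀ κ) := by exact_mod_cast h2
  rw [h3]; exact h0

/-- `ζ` restricted to `C` is the multiplicity free sum of the `N`-conjugates of `ξ₁` -/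
structure IsOrbitSum (D : Data G) [Fintype D.C] (ζ : IrrCharacter G) (ξ₁ : D.C → ℂ) : Prop where
  supp : ∀ ξ : IrrCharacter D.C, mN D ζ ξ ≠ 0 → D.Cj ξ₁ ξ
  le_one : ∀ ξ : IrrCharacter D.C, mN D ζ ξ ≤ 1
  ne : mN D ζ ξ₁ ≠ 0

theorem isOrbitSum (h : BCtx D p M B θ) {e : ℕ} {X Y : Set (IrrCharacter G)}
    {a : IrrCharacter G → ℤ}
    {ε : ℤ} (he : Nat.card {x : D.N // (θ : D.C → ℂ) ∘ D.cj x = θ} = e * Nat.card D.C)
    (hs : CShape p e (relX D θ) (fun κ : {κ : D.X // κ ≠ 1} => kcol D θ κ.1) B X Y a ε)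
    (ζ : IrrCharacter G) (hdeg : 2 * charDegree (ζ : G → ℂ) + 1 < p) {κ₀ : D.X} (hκ₀ : κ₀ ≠ 1)
    (hne : mN D ζ (D.zk θ κ₀) ≠ 0) : IsOrbitSum D ζ (D.zk θ κ₀) := by
  classical
  obtain ⟨hY, hε, hm, hval⟩ := str h he hs ζ hdeg hκ₀ hne
  have hζB : ζ ∈ B := by rw [hs.union]; exact Or.inr hY
  have key : ∀ ξ : IrrCharacter D.C, mN D ζ ξ ≠ 0 → D.Cj (D.zk θ κ₀) ξ ∧ mN D ζ ξ = 1 := by
    intro ξ hξ
    obtain ⟨ζ₀, κ, h1, h2, h3, -⟩ := D.exists_zk ξ.2
    by_cases hc : D.Cj θ ζ₀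
    · obtain ⟨x, hx⟩ := hc
      obtain ⟨κ', rfl⟩ := (h.E.xa_bijective x).2 κ
      have h4 : (ξ : D.C → ℂ) = D.zk θ κ' ∘ D.cj x := by rw [h3, ← hx, h.E.zk_cj]
      have h5 : mN D ζ ξ = mN D ζ (D.zk θ κ') := by
        unfold mN; rw [h4, D.mm_cj (irr_classFunction ζ)]
      have hκ' : κ' ≠ 1 := by
        rintro rfl
        rw [h5, D.zk_one] at hξ
        exact hξ hm
      rw [h5, hval κ' hκ'] at hξ ⊢
      split_ifs at hξ ⊢ with hc
      · exact ⟨cj_trans hc ⟨x, h4.symm⟩, rfl⟩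
      · exact absurd rfl hξ
    · exfalso
      apply hξ
      have := mN_eq_zero_of_not_cj h ζ hζB (by omega) (ξ₀ := ⟨ζ₀, h1⟩) h2 hc κ
      rw [h3]; exact this
  refine ⟨fun ξ hξ => (key ξ hξ).1, fun ξ => ?_, hne⟩
  by_cases hξ : mN D ζ ξ = 0
  · omega
  · exact (key ξ hξ).2.le

/-- the number of constituents is at most `|N : C|` -/
theorem IsOrbitSum.sum_le {ζ : IrrCharacter G} {ξ₁ : D.C → ℂ} (h : IsOrbitSum D ζ ξ₁)
    (hξ₁ : IsClassFunction D.C ξ₁) (f : ℕ) (hf : Nat.card D.N = f * Nat.card D.C) :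
    ∑ ξ : IrrCharacter D.C, mN D ζ ξ ≤ f := by
  classical
  have h1 := D.card_le_of_cj (Finset.univ.filter (fun ξ : IrrCharacter D.C => mN D ζ ξ ≠ 0))
    (fun ξ => (ξ : D.C → ℂ)) (fun a _ b _ hab => Subtype.ext hab) hξ₁
    (fun ξ hξ => h.supp ξ (Finset.mem_filter.1 hξ).2) f hf
  refine le_trans ?_ h1
  rw [Finset.card_filter]
  apply Finset.sum_le_sum
  intro ξ _
  have := h.le_one ξ
  split_ifs <;> omega

/-- the degree is at least `|N : C|` -/
theorem IsOrbitSum.le_degree {ζ : IrrCharacter G} {ξ₁ : IrrCharacter D.C}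
    (h : IsOrbitSum D ζ ξ₁) (hnt : ¬ D.PTriv ξ₁) (f : ℕ)
    (hf : Nat.card D.N = f * Nat.card D.C) : f ≤ charDegree (ζ : G → ℂ) := by
  classical
  have h1 := card_orbit (D := D) ξ₁
  rw [D.card_fibre_eq ξ₁.2 hnt (Data.Cj.refl D _), hf] at h1
  have h2 : Nat.card {ξ : IrrCharacter D.C // D.Cj ξ₁ ξ} = f :=
    Nat.eq_of_mul_eq_mul_right Nat.card_pos h1
  rw [Nat.card_eq_fintype_card, Fintype.card_subtype] at h2
  rw [← h2]
  apply card_le_degree ζ _ id (fun a _ b _ hab => hab)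
  intro ξ hξ
  have h3 := (Finset.mem_filter.1 hξ).2
  have h4 : mN D ζ ξ = mN D ζ ξ₁ := by
    unfold mN; rw [D.mm_eq_of_cj (irr_classFunction ζ) h3]
  simp only [id]
  rw [h4]; exact h.ne

end Cfsg.Agent.Lib.Helper21
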