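import Cfsg.Agent.Lib.Helper21.HalfPair
import Cfsg.Agent.Lib.Helper81.BlockOrth
import Cfsg.Agent.Lib.Helper81.BlockProj

/-!
# The principal block for a Sylow subgroup of prime order: values on `p`-singular elements
-/

set_option autoImplicit false
set_option linter.unusedSectionVars false
set_option linter.style.haveILetI false
open Cfsg
open scoped ComplexConjugate

namespace Cfsg.Agent.Lib.Helper21

open Cfsg.Agent.Lib.Helper98.BL Cfsg.Agent.Lib.Helper20 Cfsg.Agent.Lib.Helper81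
  Cfsg.Agent.Lib.Helper46 Cfsg.Agent.Lib.Helper25

universe u

variable {G : Type u} [Group G] {D : Data G} {p : ℕ} [Fact p.Prime]
  {M : Ideal AlgInt} [Fintype G] [Fintype D.C] [Fintype D.N] [Fintype D.X]
  [Fintype (IrrCharacter D.C)] [Fintype (IrrCharacter G)]
  {B : Set (IrrCharacter G)}

/-- the trivial character of `C` -/
def oneC (D : Data G) : IrrCharacter D.C := ⟨fun _ => 1, Cfsg.Agent.Lib.Helper83.isIrr_trivial⟩

theorem oneC_apply (c : D.C) : (oneC D : D.C → ℂ) c = 1 := rfl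

theorem zk_oneC (κ : D.X) : D.zk (oneC D) κ = D.hat κ := D.zk_one_fun κ

theorem pTriv_oneC' : D.PTriv (oneC D) := fun _ => rfl

/-- every `p`-singular element is conjugate to an element of `C` outside the kernel of `r` -/
theorem exists_conj_mem_C (E : DExtra D p) {g : G} (hg : p ∣ orderOf g) :
    ∃ x : G, ∃ hx : x * g * x⁻¹ ∈ D.C, D.r ⟨_, hx⟩ ≠ 1 := by
  have hp : p.Prime := Fact.out
  obtain ⟨k, hk⟩ := hg
  have hk0 : k ≠ 0 := by
    rintro rfl
    rw [mul_zero] at hk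
    exact (orderOf_pos g).ne' hk
  have ho : orderOf (g ^ k) = p := by
    rw [orderOf_pow_of_dvd hk0 ⟨p, by rw [hk, mul_comm]⟩, hk, Nat.mul_div_cancel _ (Nat.pos_of_ne_zero hk0)]
  obtain ⟨x, hx⟩ := E.hsyl _ ho
  have hz1 : (⟨_, hx⟩ : D.Z) ≠ 1 := by
    intro h1
    have h2 : x * g ^ k * x⁻¹ = 1 := congrArg Subtype.val h1
    have h3 : g ^ k = 1 := by
      have : g ^ k = x⁻¹ * (x * g ^ k * x⁻¹) * x := by group
      rw [this, h2]; group
    rw [h3, orderOf_one] at ho
    exact hp.one_lt.ne ho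
  have hmem : x * g * x⁻¹ ∈ D.C := by
    apply E.hCz ⟨_, hx⟩ hz1
    rw [Subgroup.mem_centralizer_singleton_iff]
    show x * g * x⁻¹ * (x * g ^ k * x⁻¹) = x * g ^ k * x⁻¹ * (x * g * x⁻¹)
    have h1 : g * g ^ k = g ^ k * g := (Commute.pow_right (Commute.refl g) k).eq
    calc x * g * x⁻¹ * (x * g ^ k * x⁻¹) = x * (g * g ^ k) * x⁻¹ := by group
      _ = x * (g ^ k * g) * x⁻¹ := by rw [h1]
      _ = _ := by group
  refine ⟨x, hmem, ?_⟩
  intro h1
  rw [E.hreg, Subgroup.orderOf_mk] at h1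
  apply h1
  have h2 : x * g * x⁻¹ = MulAut.conj x g := by simp [MulAut.conj_apply]
  rw [h2, MulEquiv.orderOf_eq, hk]
  exact dvd_mul_right _ _

/-- values of the members of the principal block on the singular elements of `C` -/
theorem val_principal (h : BCtx D p M B (oneC D)) {χ : IrrCharacter G} (hχ : χ ∈ B) (c : D.C)
    (hc : D.r c ≠ 1) :
    (χ : G → ℂ) c = - ∑ κ : D.X, (kcol D (oneC D) κ χ : ℂ) * D.hat κ c := by
  classical
  have h1 := res_expand χ c
  rw [sum_irr_pairs] at h1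
  rw [h1, Finset.sum_eq_single (oneC D)]
  · have h2 : ∀ κ : D.X, D.mm χ (tw (oneC D) κ) * (tw (oneC D) κ : D.C → ℂ) c
        = D.mm χ (oneC D) * D.hat κ c - (kcol D (oneC D) κ χ : ℂ) * D.hat κ c := by
      intro κ
      rw [kcol_eq_mm D (oneC D).2 κ χ, tw_coe, D.zk_apply, oneC_apply]
      ring
    simp_rw [h2]
    rw [Finset.sum_sub_distrib, ← Finset.mul_sum, h.E.sum_hat c, if_neg hc]
    ring
  · intro ξ₀ hξ₀ hne
    have hξ : D.PTriv ξ₀ := (Finset.mem_filter.1 hξ₀).2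
    have hn : ¬ D.Cj (oneC D) ξ₀ := by
      rintro ⟨x, hx⟩
      apply hne
      apply Subtype.ext
      rw [← hx]
      rfl
    have h3 : ∀ κ : D.X, D.mm χ (tw ξ₀ κ) * (tw ξ₀ κ : D.C → ℂ) c
        = (D.mm χ ξ₀ * (ξ₀ : D.C → ℂ) c) * D.hat κ c := by
      intro κ
      rw [tw_coe, h.E.mm_const_of_not_cj h.hM B h.hB h.hBP _ h.hθP h.hind χ hχ hξ hn κ,
        D.zk_apply]
      ring
    simp_rw [h3]
    rw [← Finset.mul_sum, h.E.sum_hat c, if_neg hc, mul_zero]
  · intro h0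
    exact (h0 (Finset.mem_filter.2 ⟨Finset.mem_univ _, pTriv_oneC'⟩)).elim

variable {f : ℕ} {X Y : Set (IrrCharacter G)} {a : IrrCharacter G → ℤ} {ε : ℤ}

/-- the non-exceptional characters are constant on the singular elements of `C` -/
theorem val_X_C (h : BCtx D p M B (oneC D))
    (hs : CShape p f (relX D (oneC D)) (fun κ : {κ : D.X // κ ≠ 1} => kcol D (oneC D) κ.1) B X Y a ε)
    {χ : IrrCharacter G} (hχ : χ ∈ X) (c : D.C) (hc : D.r c ≠ 1) : (χ : G → ℂ) c = (a χ : ℂ) := by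
  classical
  have hχB : χ ∈ B := by rw [hs.union]; exact Or.inl hχ
  rw [val_principal h hχB c hc]
  have h1 : ∀ κ : D.X, (kcol D (oneC D) κ χ : ℂ) * D.hat κ c
      = (a χ : ℂ) * D.hat κ c - (if κ = 1 then (a χ : ℂ) else 0) := by
    intro κ
    split_ifs with hκ
    · rw [hκ, kcol_one, D.hat_one]; simp
    · have := hs.colX χ hχ ⟨κ, hκ⟩
      simp only at this
      rw [this]; ring
  simp_rw [h1]
  rw [Finset.sum_sub_distrib, ← Finset.mul_sum, h.E.sum_hat c, if_neg hc,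
    Finset.sum_ite_eq' Finset.univ (1 : D.X), if_pos (Finset.mem_univ _)]
  ring

theorem val_X (h : BCtx D p M B (oneC D))
    (hs : CShape p f (relX D (oneC D)) (fun κ : {κ : D.X // κ ≠ 1} => kcol D (oneC D) κ.1) B X Y a ε)
    {χ : IrrCharacter G} (hχ : χ ∈ X) {g : G} (hg : p ∣ orderOf g) :
    (χ : G → ℂ) g = (a χ : ℂ) := by
  obtain ⟨x, hx, hr⟩ := exists_conj_mem_C h.E hg
  rw [← irr_classFunction χ g x]
  exact val_X_C h hs hχ ⟨_, hx⟩ hr

/-- the sum of the values on `Z` -/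
theorem sum_Z_eq (h : BCtx D p M B (oneC D)) {χ : IrrCharacter G} (hχ : χ ∈ B) [Fintype D.Z] :
    ∑ z : D.Z, (χ : G → ℂ) z
      = (χ : G → ℂ) 1 + ∑ κ : D.X, (kcol D (oneC D) κ χ : ℂ) := by
  classical
  have h1 : ∀ z : D.Z, (χ : G → ℂ) z
      = (- ∑ κ : D.X, (kcol D (oneC D) κ χ : ℂ) * ((κ z : ℂˣ) : ℂ))
        + (if z = 1 then (χ : G → ℂ) 1 + ∑ κ : D.X, (kcol D (oneC D) κ χ : ℂ) else 0) := by
    intro z
    split_ifs with hz
    · subst hz
      simp
    · have h2 := val_principal h hχ (D.inZ z) (by rw [D.r_inZ]; exact hz)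
      simp_rw [D.hat_inZ] at h2
      rw [add_zero]
      exact h2
  simp_rw [h1]
  rw [Finset.sum_add_distrib, Finset.sum_ite_eq' Finset.univ (1 : D.Z), if_pos (Finset.mem_univ _),
    Finset.sum_neg_distrib, Finset.sum_comm]
  have h3 : ∀ κ : D.X, ∑ z : D.Z, (kcol D (oneC D) κ χ : ℂ) * ((κ z : ℂˣ) : ℂ) = 0 := by
    intro κ
    rw [← Finset.mul_sum]
    by_cases hκ : κ = 1
    · rw [hκ, kcol_one]; simp
    · have h4 := sum_hom_orth κ (1 : D.X)
      rw [if_neg hκ] at h4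
      simp only [MonoidHom.one_apply, Units.val_one, map_one, mul_one] at h4
      rw [h4, mul_zero]
  simp_rw [h3]
  simp

theorem conj_irr_one {H : Type*} [Group H] (χ : IrrCharacter H) :
    conj ((χ : H → ℂ) 1) = (χ : H → ℂ) 1 := by
  rw [Cfsg.Agent.Lib.Helper82.isChar_one_eq (isCharacter_of_isIrrCharacter χ.2),
    Complex.conj_natCast]

open Classical in
/-- the sum of the exceptional characters on singular elements -/
theorem sum_Y_val (h : BCtx D p M B (oneC D))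
    (hs : CShape p f (relX D (oneC D)) (fun κ : {κ : D.X // κ ≠ 1} => kcol D (oneC D) κ.1) B X Y a ε)
    {ξ₁ : IrrCharacter G} (hξ₁ : ξ₁ ∈ Y) {g : G} (hg : p ∣ orderOf g) :
    ∑ χ : IrrCharacter G, (if χ ∈ Y then (χ : G → ℂ) g else 0) = -(ε : ℂ) := by
  have hp1 : ¬ p ∣ orderOf (1 : G) := by
    rw [orderOf_one, Nat.dvd_one]; exact (Fact.out : p.Prime).one_lt.ne'
  obtain ⟨x, hx⟩ := exists_isPPart (Fact.out : p.Prime) g
  have hx1 := isPPart_ne_one_of_singular hg hx
  have hbo := block_orth h.hM B h.hB hx (isPPart_one_of_regular hp1)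
    (fun hc => hx1 (isConj_one_left.1 hc))
  rw [finsum_mem_irr] at hbo
  have hsplit : ∀ χ : IrrCharacter G,
      (if χ ∈ B then (χ : G → ℂ) g * conj ((χ : G → ℂ) 1) else 0)
      = (if χ ∈ X then (a χ : ℂ) * (χ : G → ℂ) 1 else 0)
        + (if χ ∈ Y then (χ : G → ℂ) g else 0) * (ξ₁ : G → ℂ) 1 := by
    intro χ
    rw [conj_irr_one]
    by_cases hX : χ ∈ X
    · have hY : χ ∉ Y := fun hY => Set.disjoint_left.1 hs.disj hX hY
      have hB : χ ∈ B := by rw [hs.union]; exact Or.inl hX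
      rw [if_pos hB, if_pos hX, if_neg hY, val_X h hs hX hg]
      ring
    · by_cases hY : χ ∈ Y
      · have hB : χ ∈ B := by rw [hs.union]; exact Or.inr hY
        rw [if_pos hB, if_neg hX, if_pos hY, hs.agree χ hY ξ₁ hξ₁ 1 hp1]
        ring
      · have hB : χ ∉ B := by
          rw [hs.union]; rintro (h' | h')
          · exact hX h'
          · exact hY h'
        rw [if_neg hB, if_neg hX, if_neg hY]
        ring
  simp_rw [hsplit] at hbo
  rw [Finset.sum_add_distrib, ← Finset.sum_mul] at hbo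
  have hrel := hs.rel ξ₁ hξ₁ 1 hp1
  rw [finsum_mem_irr] at hrel
  rw [← hrel] at hbo
  have h0 := DExtra.irr_one_ne ξ₁.2
  have h5 : ((ε : ℂ) + ∑ χ : IrrCharacter G, (if χ ∈ Y then (χ : G → ℂ) g else 0))
      * (ξ₁ : G → ℂ) 1 = 0 := by
    linear_combination hbo
  rcases mul_eq_zero.1 h5 with h6 | h6
  · linear_combination h6
  · exact absurd h6 h0

/-- inner products with functions which are constant on the singular elements -/
theorem classInner_of_singular_const {Δ F : G → ℂ} (hΔ : ∀ g, ¬ p ∣ orderOf g → Δ g = 0) (c : ℂ)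
    (hF : ∀ g, p ∣ orderOf g → F g = c) :
    classInner Δ F = conj c * classInner Δ (fun _ => 1) := by
  unfold classInner
  rw [mul_left_comm]
  congr 1
  rw [Finset.mul_sum]
  apply Finset.sum_congr rfl
  intro g _
  by_cases hg : p ∣ orderOf g
  · rw [hF g hg]; simp; ring
  · rw [hΔ g hg]; simp

end Cfsg.Agent.Lib.Helper21
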